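import Cfsg.Agent.Mathieu.OutSmall
import Cfsg.Agent.Mathieu.FixList
import Cfsg.Agent.M24Orbits.Data.ClassReps

set_option autoImplicit false

/-! A Sylow 3-subgroup of `M24` given by its 27 tables; its centre is generated by an element with
six fixed points. -/

namespace CfsgLib.MonsterCent13.Three

open Cfsg CfsgLib.Mathieu CfsgLib.M24Orbits.Data
open scoped Pointwise

/-- The tables. -/
def syl3List : List (List ℕ) := [
  [0,1,2,3,4,5,6,7,8,9,10,11,12,13,14,15,16,17,18,19,20,21,22,23],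
  [0,1,2,3,4,5,16,10,13,19,12,8,7,11,23,20,21,14,9,18,22,6,15,17],
  [4,0,2,3,1,5,21,10,17,9,12,23,7,14,15,13,6,22,18,19,11,16,8,20],
  [4,0,5,2,1,3,12,9,14,16,19,17,18,23,22,13,7,20,6,21,11,10,8,15],
  [0,1,2,3,4,5,21,12,11,18,7,13,10,8,17,22,6,23,19,9,15,16,20,14],
  [4,0,2,3,1,5,6,12,14,19,7,17,10,23,20,11,16,15,9,18,8,21,13,22],
  [4,0,5,2,1,3,7,19,23,21,18,14,9,17,15,11,10,22,16,6,8,12,13,20],
  [1,4,2,3,0,5,16,12,22,9,7,20,10,15,13,14,21,8,18,19,23,6,17,11],
  [1,4,5,2,0,3,7,9,15,6,19,22,18,20,8,14,10,11,21,16,23,12,17,13],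
  [1,4,5,2,0,3,10,19,20,16,18,15,9,22,13,23,12,8,6,21,17,7,14,11],
  [1,4,3,5,0,2,18,16,22,7,21,20,6,15,8,23,9,11,12,10,17,19,14,13],
  [4,0,2,3,1,5,16,7,23,18,10,14,12,17,22,8,21,20,19,9,13,6,11,15],
  [4,0,5,2,1,3,10,18,17,6,9,23,19,14,20,8,12,15,21,16,13,7,11,22],
  [1,4,2,3,0,5,21,7,15,19,10,22,12,20,11,23,6,13,9,18,17,16,14,8],
  [1,4,5,2,0,3,12,18,22,21,9,20,19,15,11,17,7,13,16,6,14,10,23,8],
  [1,4,3,5,0,2,9,21,15,10,6,22,16,20,13,17,19,8,7,12,14,18,23,11],
  [0,1,5,2,4,3,10,9,13,21,19,8,18,11,17,15,12,23,16,6,20,7,22,14],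
  [0,1,5,2,4,3,12,19,11,6,18,13,9,8,14,20,7,17,21,16,22,10,15,23],
  [0,1,3,5,4,2,18,6,8,10,16,11,21,13,17,20,9,23,7,12,22,19,15,14],
  [0,1,5,2,4,3,7,18,8,16,9,11,19,13,23,22,10,14,6,21,15,12,20,17],
  [0,1,3,5,4,2,9,16,13,12,21,8,6,11,14,22,19,17,10,7,15,18,20,23],
  [0,1,3,5,4,2,19,21,11,7,6,13,16,8,23,15,18,14,12,10,20,9,22,17],
  [1,4,2,3,0,5,6,10,20,18,12,15,7,22,8,17,16,11,19,9,14,21,23,13],
  [1,4,3,5,0,2,19,6,20,12,16,15,21,22,11,14,18,13,10,7,23,9,17,8],
  [4,0,3,5,1,2,18,21,17,12,6,23,16,14,22,11,9,20,10,7,8,19,13,15],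
  [4,0,3,5,1,2,9,6,14,7,16,17,21,23,15,8,19,22,12,10,13,18,11,20],
  [4,0,3,5,1,2,19,16,23,10,21,14,6,17,20,13,18,15,7,12,11,9,8,22]]

theorem syl3_closed : (syl3List.all fun a => syl3List.all fun c =>
    syl3List.contains (compTab a c)) = true := by decide +kernel

theorem syl3_tabs : syl3List.all tabInM24 = true := by decide +kernel

theorem syl3_facts : syl3List.length = 27 ∧ syl3List.Nodup ∧ syl3List.contains idTab = true ∧
    syl3List.contains fix3Rep = true := by decide +kernel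

theorem syl3_center : (syl3List.all fun a => !(syl3List.all fun c => compTab a c == compTab c a) ||
    a == idTab || a == fix3Rep || a == compTab fix3Rep fix3Rep) = true := by decide +kernel

/-- The subgroup with these tables. -/
def syl3 : Submonoid M24 where
  carrier := {g | toTab (g : Equiv.Perm GolayPt) ∈ syl3List}
  one_mem' := by
    show toTab ((1 : M24) : Equiv.Perm GolayPt) ∈ syl3List
    rw [Subgroup.coe_one, toTab_one, ← List.contains_iff_mem]
    exact syl3_facts.2.2.1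
  mul_mem' {a c} ha hc := by
    show toTab ((a * c : M24) : Equiv.Perm GolayPt) ∈ syl3List
    rw [Subgroup.coe_mul, toTab_mul]
    exact List.contains_iff_mem.1 (List.all_eq_true.1 (List.all_eq_true.1 syl3_closed _ ha) _ hc)

/-- The subgroup with these tables. -/
noncomputable def syl3Grp : Subgroup M24 :=
  { syl3 with
    inv_mem' := fun {x} hx => by
      obtain ⟨n, hn⟩ : x⁻¹ ∈ Submonoid.powers x :=
        mem_powers_iff_mem_zpowers.2 (Subgroup.inv_mem _ (Subgroup.mem_zpowers x))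
      rw [← hn]
      exact syl3.pow_mem hx n }

theorem mem_syl3Grp {g : M24} : g ∈ syl3Grp ↔ toTab (g : Equiv.Perm GolayPt) ∈ syl3List := Iff.rfl

theorem card_syl3Grp : Nat.card syl3Grp = 27 := by
  have e : syl3List.toFinset.card = 27 := by
    rw [List.toFinset_card_of_nodup syl3_facts.2.1, syl3_facts.1]
  rw [← e, ← Nat.card_eq_finsetCard]
  refine Nat.card_eq_of_bijective (fun g : syl3Grp =>
    (⟨toTab ((g : M24) : Equiv.Perm GolayPt), List.mem_toFinset.2 g.2⟩ : syl3List.toFinset)) ⟨?_, ?_⟩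
  · intro a c h
    exact Subtype.ext (Subtype.ext (toTab_injective (congrArg Subtype.val h)))
  · rintro ⟨t, ht⟩
    obtain ⟨g, hg, rfl⟩ :=
      rep_of_tabInM24 (List.all_eq_true.1 syl3_tabs t (List.mem_toFinset.1 ht))
    exact ⟨⟨⟨g, hg⟩, List.mem_toFinset.1 ht⟩, rfl⟩

/-- The element generating the centre. -/
theorem exists_sigma : ∃ σ : M24, toTab (σ : Equiv.Perm GolayPt) = fix3Rep ∧ σ ^ 3 = 1 ∧ σ ≠ 1 := by
  obtain ⟨g, hg, h⟩ := rep_of_tabInM24 (t := fix3Rep) (by decide +kernel)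
  refine ⟨⟨g, hg⟩, h, Subtype.ext (toTab_injective ?_), fun e => ?_⟩
  · rw [pow_succ, pow_two, Subgroup.coe_mul, Subgroup.coe_mul, toTab_mul, toTab_mul,
      Subgroup.coe_one, toTab_one, h]
    decide +kernel
  · have e' : toTab g = toTab 1 := congrArg (fun x : M24 => toTab (x : Equiv.Perm GolayPt)) e
    rw [h, toTab_one] at e'
    exact absurd e' (by decide +kernel)

theorem center_cases {σ g : M24} (hσ : toTab (σ : Equiv.Perm GolayPt) = fix3Rep) (hg : g ∈ syl3Grp)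
    (hc : ∀ h ∈ syl3Grp, g * h = h * g) : g = 1 ∨ g = σ ∨ g = σ * σ := by
  have h := List.all_eq_true.1 syl3_center _ hg
  simp only [Bool.or_eq_true, Bool.not_eq_true', beq_iff_eq] at h
  rcases h with ((h | h) | h) | h
  · exfalso
    have hall : (syl3List.all fun c => compTab (toTab (g : Equiv.Perm GolayPt)) c ==
        compTab c (toTab (g : Equiv.Perm GolayPt))) = true := by
      refine List.all_eq_true.2 fun c hcm => ?_
      obtain ⟨k, hk, rfl⟩ := rep_of_tabInM24 (List.all_eq_true.1 syl3_tabs c hcm)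
      rw [beq_iff_eq, ← toTab_mul, ← toTab_mul]
      exact congrArg (fun x : M24 => toTab (x : Equiv.Perm GolayPt)) (hc ⟨k, hk⟩ hcm)
    rw [h] at hall
    exact Bool.false_ne_true hall
  · exact Or.inl (Subtype.ext (toTab_injective (by rw [h, Subgroup.coe_one, toTab_one])))
  · exact Or.inr (Or.inl (Subtype.ext (toTab_injective (by rw [h, hσ]))))
  · exact Or.inr (Or.inr (Subtype.ext (toTab_injective (by rw [h, Subgroup.coe_mul, toTab_mul, hσ]))))

end CfsgLib.MonsterCent13.Three
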