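import Mathlib
import Cfsg.Agent.Leech.Forms
import Cfsg.Agent.Leech.MatRep
import Cfsg.Agent.Leech.Classes
import Cfsg.Agent.Leech.ModTwo
import Cfsg.Agent.MonsterCent13.Three.FixData
import Cfsg.Agent.MonsterCent13.Three.Sylow

set_option autoImplicit false

/-! The classes fixed by the permutation: 4096 of them, at most 1701 being frame classes. -/

namespace CfsgLib.MonsterCent13.Three

open Cfsg CfsgLib.Leech CfsgLib.Mathieu CfsgLib.Leech.MatRep CfsgLib.M24Orbits.Data Data
open scoped Pointwise

/-- The vector of a list. -/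
def vecOf (l : List ℤ) : GolayPt → ℤ := fun p => l.getD (p2i p) 0

/-- The inverse of the permutation, as a map of points. -/
def backPt (p : GolayPt) : GolayPt := i2p (app fix3Rep (app fix3Rep (p2i p)))

theorem symm_eq_backPt {σ : M24} (hσ : toTab (σ : Equiv.Perm GolayPt) = fix3Rep) (p : GolayPt) :
    σ.1.symm p = backPt p := by
  rw [Equiv.symm_apply_eq]
  apply p2i_injective
  have h3 : ∀ i < 24, app fix3Rep (app fix3Rep (app fix3Rep i)) = i ∧ app fix3Rep i < 24 := by
    decide +kernel
  obtain ⟨e, hlt⟩ := h3 (p2i p) (p2i_lt p)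
  have hlt2 := (h3 _ hlt).2
  rw [backPt, ← app_toTab' σ.1, p2i_i2p _ hlt2, hσ, e]

/-- A combination of a list of vectors. -/
def combL : List leechLattice → ℕ → leechLattice
  | [], _ => 0
  | b :: bs, j => (if j % 2 = 1 then b else 0) + combL bs (j / 2)

/-- A bit as a residue. -/
def b2z (x : Bool) : ZMod 2 := if x then 1 else 0

/-- A residue as a bit. -/
def z2b (x : ZMod 2) : Bool := decide (x = 1)

theorem b2z_z2b : ∀ x : ZMod 2, b2z (z2b x) = x := by decide

theorem b2z_xor : ∀ a c : Bool, b2z (a ^^ c) = b2z a + b2z c := by decide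

/-- A linear form on coordinates. -/
def linN : List Bool → ℕ → Bool
  | [], _ => false
  | b :: bs, j => (decide (j % 2 = 1) && b) ^^ linN bs (j / 2)

/-- A quadratic form on coordinates. -/
def qN : List (Bool × List Bool) → ℕ → Bool
  | [], _ => false
  | (d, l) :: bs, j => (decide (j % 2 = 1) && (d ^^ linN l (j / 2))) ^^ qN bs (j / 2)

/-- The data of the form. -/
def qsOf : List leechLattice → List (Bool × List Bool)
  | [] => []
  | b :: bs => (z2b (normPar b), bs.map fun c => z2b (dotPar c b)) :: qsOf bs

theorem dot_combL (w : leechLattice) : ∀ (bs : List leechLattice) (j : ℕ),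
    dotPar (combL bs j) w = b2z (linN (bs.map fun c => z2b (dotPar c w)) j)
  | [], j => by simp [combL, linN, b2z, dotPar_zero_left]
  | b :: bs, j => by
    rw [combL, dotPar_add_left, dot_combL w bs, List.map_cons, linN, b2z_xor]
    congr 1
    by_cases h : j % 2 = 1
    · simp [h, b2z_z2b]
    · simp [h, b2z, dotPar_zero_left]

theorem normPar_combL : ∀ (bs : List leechLattice) (j : ℕ),
    normPar (combL bs j) = b2z (qN (qsOf bs) j)
  | [], j => by simp [combL, qN, qsOf, b2z, normPar, sqNorm]
  | b :: bs, j => by
    rw [combL, qsOf, qN, normPar_add, normPar_combL bs, b2z_xor]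
    by_cases h : j % 2 = 1
    · simp only [h, decide_true, Bool.true_and, if_true, b2z_xor, b2z_z2b, ← dot_combL]
      have hs : dotPar b (combL bs (j / 2)) = dotPar (combL bs (j / 2)) b := by
        simp only [dotPar, dotInt_comm]
      rw [hs]; ring
    · simp only [h, decide_false, Bool.false_and, if_false, dotPar_zero_left, add_zero]
      simp [normPar, sqNorm, b2z]

theorem rows_check : (∀ i : Fin 12, CheckLeech (vecOf (fixRows.getD i.val [])) ∧
      ∀ p, vecOf (fixRows.getD i.val []) (backPt p) = vecOf (fixRows.getD i.val []) p) ∧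
    ∀ i : Fin 12, CheckLeech (vecOf (dualRows.getD i.val [])) := by decide +kernel

/-- The fixed basis. -/
def fixB (i : Fin 12) : leechLattice := ⟨_, mem_leech_of_check (rows_check.1 i).1⟩

/-- The dual vectors. -/
def dualB (i : Fin 12) : leechLattice := ⟨_, mem_leech_of_check (rows_check.2 i)⟩

/-- The basis as a list. -/
def fixBs : List leechLattice := (List.finRange 12).map fixB

theorem dual_check : ∀ l : Fin 12, (fixBs.map fun c => z2b (dotPar c (dualB l))) =
    (List.range 12).map (fun i => decide (i = l.val)) := by decide +kernel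

theorem q_check : qsOf fixBs = qData := by decide +kernel

theorem lin_check : ((List.range 12).all fun l => (List.range 4096).all fun j =>
    linN ((List.range 12).map (fun i => decide (i = l))) j == j.testBit l) = true := by decide +kernel

/-- The class with given coordinates. -/
def combB (j : ℕ) : leechLattice := combL fixBs j

theorem dot_combB {j : ℕ} (hj : j < 4096) (l : Fin 12) :
    dotPar (combB j) (dualB l) = b2z (j.testBit l.val) := by
  have h := List.all_eq_true.1 (List.all_eq_true.1 lin_check l.val (List.mem_range.2 l.2)) j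
    (List.mem_range.2 hj)
  rw [beq_iff_eq] at h
  rw [combB, dot_combL, dual_check, h]

theorem combB_inj {j k : ℕ} (hj : j < 4096) (hk : k < 4096) (h : Cg (combB j) (combB k)) : j = k := by
  refine Nat.eq_of_testBit_eq fun l => ?_
  by_cases hl : l < 12
  · have h2 := dotPar_cg h (dualB ⟨l, hl⟩)
    rw [dot_combB hj, dot_combB hk] at h2
    revert h2
    cases j.testBit l <;> cases k.testBit l <;> decide
  · have hp : (4096 : ℕ) ≤ 2 ^ l := by
      calc (4096 : ℕ) = 2 ^ 12 := by norm_num
        _ ≤ 2 ^ l := Nat.pow_le_pow_right (by norm_num) (by omega)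
    rw [Nat.testBit_lt_two_pow (hj.trans_le hp), Nat.testBit_lt_two_pow (hk.trans_le hp)]

variable {σ : M24} (hσ : toTab (σ : Equiv.Perm GolayPt) = fix3Rep)
include hσ

theorem fixB_fixed (i : Fin 12) : permHom σ • fixB i = fixB i :=
  Subtype.ext (funext fun p => by
    rw [permHom_apply, symm_eq_backPt hσ]; exact (rows_check.1 i).2 p)

theorem combL_fixed : ∀ (bs : List leechLattice), (∀ b ∈ bs, permHom σ • b = b) → ∀ j,
    permHom σ • combL bs j = combL bs j
  | [], _, _ => co0_map_zero _
  | b :: bs, h, j => by
    rw [combL, co0_map_add, combL_fixed bs (fun c hc => h c (List.mem_cons_of_mem _ hc))]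
    congr 1
    split
    · exact h b List.mem_cons_self
    · exact co0_map_zero _

theorem combB_fixed (j : ℕ) : permHom σ • combB j = combB j :=
  combL_fixed hσ _ (fun b hb => by
    obtain ⟨i, -, rfl⟩ := List.mem_map.1 hb
    exact fixB_fixed hσ i) j

omit hσ in
theorem trace_check : ∀ k : Fin 49, traceCode.getD k.val 0 < 4096 ∧
    CheckLeech (vecOf (traceDiff.getD k.val [])) ∧ ∀ p,
      genList.getD k.val 0 p + genList.getD k.val 0 (backPt p) +
          genList.getD k.val 0 (backPt (backPt p)) =
        ((combB (traceCode.getD k.val 0) : leechLattice) : GolayPt → ℤ) p +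
          2 * vecOf (traceDiff.getD k.val []) p := by
  decide +kernel

/-- Every fixed class has coordinates. -/
theorem exists_coord {v : leechLattice} (hv : Cg (permHom σ • v) v) :
    ∃ j < 4096, Cg v (combB j) := by
  let T : AddSubgroup leechLattice :=
    { carrier := {u | ∃ j < 4096, Cg (u + permHom σ • u + permHom σ • permHom σ • u) (combB j)}
      zero_mem' := ⟨0, by norm_num, by
        simp only [co0_map_zero, add_zero]
        rw [show combB 0 = 0 from comb_zero fixBs]; exact Cg.refl _⟩
      neg_mem' := by
        rintro u ⟨j, hj, h⟩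
        refine ⟨j, hj, Cg.trans ?_ h⟩
        exact ⟨-(u + permHom σ • u + permHom σ • permHom σ • u), by
          simp only [co0_map_neg]; abel⟩
      add_mem' := by
        rintro u w ⟨j, hj, h⟩ ⟨k, hk, h'⟩
        refine ⟨j ^^^ k, Nat.xor_lt_two_pow (n := 12) hj hk, Cg.trans ?_ (comb_add fixBs j k)⟩
        have e : (u + w) + permHom σ • (u + w) + permHom σ • permHom σ • (u + w) =
            (u + permHom σ • u + permHom σ • permHom σ • u) +
              (w + permHom σ • w + permHom σ • permHom σ • w) := by
          simp only [co0_map_add]; abel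
        rw [e]
        exact h.add h' }
  have hT : ∀ u : leechLattice, u ∈ T := by
    intro u
    have h : leechLattice ≤ T.map leechLattice.subtype := by
      refine leech_le_of_genList fun x hx => ?_
      obtain ⟨n, hn, hxn⟩ := List.getElem_of_mem hx
      have hn' : n < 49 := hn
      obtain ⟨hj, hz, he⟩ := trace_check ⟨n, hn'⟩
      refine ⟨⟨x, genList_mem x hx⟩, ⟨_, hj, cg_of_eq (w := ⟨_, mem_leech_of_check hz⟩) fun p => ?_⟩, rfl⟩
      have e := he p
      rw [List.getD_eq_getElem _ _ hn, hxn] at e
      simp only [AddSubgroup.coe_add, Pi.add_apply, permHom_apply, symm_eq_backPt hσ]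
      exact e
    obtain ⟨u', hu', he⟩ := h u.2
    rwa [show u' = u from Subtype.ext he] at hu'
  obtain ⟨j, hj, h⟩ := hT v
  refine ⟨j, hj, Cg.trans ?_ h⟩
  refine Cg.trans ?_ ((((Cg.refl v).add hv.symm).add (hv.symm.trans (hv.symm.smul (permHom σ)))))
  exact ⟨-v, by abel⟩
where
  comb_zero : ∀ bs : List leechLattice, combL bs 0 = 0
    | [] => rfl
    | b :: bs => by simp [combL, comb_zero bs]
  comb_add : ∀ (bs : List leechLattice) (j k : ℕ),
      Cg (combL bs j + combL bs k) (combL bs (j ^^^ k))
    | [], _, _ => by simp [combL]; exact Cg.refl _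
    | b :: bs, j, k => by
      have h2 : (j ^^^ k) / 2 = j / 2 ^^^ k / 2 := by
        refine Nat.eq_of_testBit_eq fun i => ?_
        simp [Nat.testBit_div_two, Nat.testBit_xor]
      have hb : decide ((j ^^^ k) % 2 = 1) = (decide (j % 2 = 1) ^^ decide (k % 2 = 1)) := by
        rw [← Nat.testBit_zero, ← Nat.testBit_zero, ← Nat.testBit_zero, Nat.testBit_xor]
      simp only [combL]
      rw [add_add_add_comm, h2]
      refine Cg.add ?_ (comb_add bs _ _)
      by_cases h1 : j % 2 = 1 <;> by_cases h3 : k % 2 = 1 <;>
        simp only [h1, h3, decide_true, decide_false, Bool.xor_self, Bool.xor_false, Bool.false_xor,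
          decide_eq_true_eq, decide_eq_false_iff_not] at hb <;>
        simp only [h1, h3, hb, if_true, if_false, add_zero, zero_add]
      · exact cg_add_self b
      all_goals exact Cg.refl _

/-- The number of fixed classes, as a set of classes. -/
theorem coord_unique {v : leechLattice} (hv : Cg (permHom σ • v) v) :
    ∃! j, j < 4096 ∧ Cg v (combB j) := by
  obtain ⟨j, hj, h⟩ := exists_coord hσ hv
  exact ⟨j, ⟨hj, h⟩, fun k hk => combB_inj hk.1 hj (hk.2.symm.trans h)⟩

/-- One short vector checked. -/
def shortOK (e : List ℕ × ℕ) : Bool :=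
  lchk e.1 && decide (sqNorm (ofN e.1) = 32) &&
    decide (∀ p, ofN e.1 (backPt p) = ofN e.1 p) &&
    decide (∀ l : Fin 12, ((dotInt (ofN e.1) (vecOf (dualRows.getD l.val [])) / 8 : ℤ) : ZMod 2) =
      b2z (e.2.testBit l.val)) && decide (e.2 < 4096)

omit hσ in
theorem short_check : shortData.all shortOK = true := by decide +kernel

omit hσ in
theorem mask_check : ((List.range 4096).all fun j =>
    !(shortMask.testBit j) || (shortData.map Prod.snd).contains j) = true := by decide +kernel

/-- A coordinate left for frame classes. -/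
def frameCode (j : ℕ) : Bool := !(j == 0) && !(qN qData j) && !(shortMask.testBit j)

omit hσ in
theorem frame_count : ((List.range 4096).filter frameCode).length = 1701 := by decide +kernel

omit hσ in
theorem not_short_frame {v : leechLattice} (h : Rel v (axisVec none)) :
    ¬ Cg v 0 ∧ ∀ w : leechLattice, sqNorm (w : GolayPt → ℤ) = 32 → ¬ Cg v w := by
  have h64 : sqNorm ((axisVec none : leechLattice) : GolayPt → ℤ) = 64 := sqNorm_axisVec none
  refine ⟨fun h0 => ?_, fun w hw hvw => ?_⟩
  · have := rel_short ((Rel.of_cg h0.symm).trans h) (by rw [ZeroMemClass.coe_zero, sqNorm_eq_zero.2 rfl]; norm_num) h64.le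
    rw [ZeroMemClass.coe_zero, sqNorm_eq_zero.2 rfl, h64] at this
    omega
  · have := rel_short ((Rel.of_cg hvw.symm).trans h) (by omega) h64.le
    omega

theorem frame_code {v : leechLattice} {j : ℕ} (hj : j < 4096) (hvj : Cg v (combB j))
    (h : Rel v (axisVec none)) : frameCode j = true := by
  obtain ⟨h0, hs⟩ := not_short_frame h
  simp only [frameCode, Bool.and_eq_true, Bool.not_eq_true', beq_eq_false_iff_ne]
  refine ⟨⟨?_, ?_⟩, ?_⟩
  · rintro rfl
    exact h0 (hvj.trans (by rw [show combB 0 = 0 from exists_coord.comb_zero fixBs]; exact Cg.refl _))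
  · have hn : normPar (combB j) = 0 := by
      rw [normPar_eq_zero_iff, ← hvj.sqNorm_iff, h.sqNorm_iff, sqNorm_axisVec]
      norm_num
    rw [combB, normPar_combL, q_check] at hn
    revert hn
    cases qN qData j <;> decide
  · by_contra hne
    rw [Bool.not_eq_false] at hne
    have h1 := List.all_eq_true.1 mask_check j (List.mem_range.2 hj)
    simp only [hne, Bool.not_true, Bool.false_or, List.contains_iff_mem, List.mem_map] at h1
    obtain ⟨⟨l, k⟩, hlk, rfl⟩ := h1
    have h2 := List.all_eq_true.1 short_check _ hlk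
    simp only [shortOK, Bool.and_eq_true, decide_eq_true_eq] at h2
    obtain ⟨⟨⟨⟨hl, hn32⟩, hfix⟩, hdot⟩, hk⟩ := h2
    let w : leechLattice := ⟨ofN l, mem_of_lchk hl⟩
    have hwf : permHom σ • w = w := Subtype.ext (funext fun p => by
      rw [permHom_apply, symm_eq_backPt hσ]; exact hfix p)
    obtain ⟨i, hi, hwi⟩ := exists_coord hσ (v := w) (by rw [hwf]; exact Cg.refl _)
    have hik : i = k := by
      refine Nat.eq_of_testBit_eq fun l' => ?_
      by_cases hl' : l' < 12
      · have h3 := dotPar_cg hwi (dualB ⟨l', hl'⟩)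
        rw [dot_combB hi, show dotPar w (dualB ⟨l', hl'⟩) = b2z (k.testBit l') from hdot ⟨l', hl'⟩] at h3
        revert h3
        cases k.testBit l' <;> cases i.testBit l' <;> decide
      · have hp : (4096 : ℕ) ≤ 2 ^ l' := by
          calc (4096 : ℕ) = 2 ^ 12 := by norm_num
            _ ≤ 2 ^ l' := Nat.pow_le_pow_right (by norm_num) (by omega)
        rw [Nat.testBit_lt_two_pow (hi.trans_le hp), Nat.testBit_lt_two_pow (hk.trans_le hp)]
    subst hik
    exact hs w hn32 (hvj.trans hwi.symm)

end CfsgLib.MonsterCent13.Three
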