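import Mathlib
import Cfsg.Agent.Leech.FrameGroup
import Cfsg.Agent.Mathieu.Fast
import Cfsg.Agent.M24Orbits.Data.ClassReps
import Cfsg.Agent.Mathieu.Bounds
import Cfsg.Agent.Mathieu.FixList

set_option autoImplicit false

/-! The centraliser in the frame group of a permutation of order three with six fixed points has
at most 69120 elements. -/

namespace CfsgLib.MonsterCent13.Three

open Cfsg CfsgLib.Leech CfsgLib.Mathieu CfsgLib.Golay CfsgLib.M24Orbits.Data
open scoped Pointwise

theorem four_fix_count : (fixList4F.filter fun t => fcomp t fix3Rep == fcomp fix3Rep t).length = 3 := by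
  decide +kernel

/-- The six fixed points. -/
def sixPts : List ℕ := (List.range 24).filter fun i => app fix3Rep i == i

theorem sixPts_facts : sixPts.length = 6 ∧ ([0, 1, 2, 3].all fun i => sixPts.contains i) = true := by
  decide +kernel

theorem card_cent_m24 {σ : M24} (hσ : toTab (σ : Equiv.Perm GolayPt) = fix3Rep) :
    Nat.card (Subgroup.centralizer ({σ} : Set M24)) ≤ 1080 := by
  classical
  haveI := Fintype.ofFinite (Subgroup.centralizer ({σ} : Set M24))
  let S : Finset GolayPt := Finset.univ.filter fun p => σ.1 p = p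
  have hS : S.card ≤ 6 := by
    have h : S.image p2i ⊆ sixPts.toFinset := by
      intro i hi
      obtain ⟨p, hp, rfl⟩ := Finset.mem_image.1 hi
      simp only [S, Finset.mem_filter, Finset.mem_univ, true_and] at hp
      simp only [List.mem_toFinset, sixPts, List.mem_filter, List.mem_range, beq_iff_eq]
      refine ⟨p2i_lt p, ?_⟩
      rw [← hσ, app_toTab', hp]
    have h2 := Finset.card_le_card h
    rw [Finset.card_image_of_injective _ p2i_injective] at h2
    exact h2.trans ((List.toFinset_card_le _).trans_eq sixPts_facts.1)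
  have hfix : ∀ k : Fin 4, σ.1 (i2p k.val) = i2p k.val := by
    intro k
    apply p2i_injective
    rw [p2i_i2p _ (by omega), ← app_toTab _ _ (by omega : k.val < 24), hσ]
    revert k
    decide +kernel
  let f : Subgroup.centralizer ({σ} : Set M24) → (Fin 4 ↪ S) := fun τ =>
    ⟨fun k => ⟨τ.1.1 (i2p k.val), by
      simp only [S, Finset.mem_filter, Finset.mem_univ, true_and]
      have h := congrArg (fun g : M24 => g.1 (i2p k.val))
        (Subgroup.mem_centralizer_singleton_iff.1 τ.2)
      simp only [Subgroup.coe_mul, Equiv.Perm.mul_apply, hfix] at h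
      exact h.symm⟩, fun a c h => by
      have h' := congrArg p2i (τ.1.1.injective (congrArg Subtype.val h))
      rw [p2i_i2p _ (by omega), p2i_i2p _ (by omega)] at h'
      exact Fin.ext h'⟩
  have hfib : ∀ a ∈ Finset.univ.image f, (Finset.univ.filter fun τ => f τ = a).card ≤ 3 := by
    intro a ha
    obtain ⟨τ₀, -, rfl⟩ := Finset.mem_image.1 ha
    refine le_trans ?_ ((List.toFinset_card_le _).trans_eq four_fix_count)
    refine Finset.card_le_card_of_injOn
      (fun τ => toTab ((τ₀⁻¹ * τ).1 : Equiv.Perm GolayPt)) ?_ ?_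
    · intro τ hτ
      simp only [Finset.coe_filter, Finset.mem_univ, true_and, Set.mem_setOf_eq] at hτ
      simp only [Finset.mem_coe, List.mem_toFinset, List.mem_filter, beq_iff_eq]
      set u := τ₀⁻¹ * τ with hu
      refine ⟨?_, ?_⟩
      · rw [fixList4F_eq]
        refine toTab_mem_fixList4 (mem_base7Fix.2 ⟨u.1.2, ?_⟩)
        intro c hc
        have hc4 : c < 4 := by
          simp [base7] at hc
          omega
        have h1 : τ.1.1 (i2p c) = τ₀.1.1 (i2p c) :=
          congrArg (fun e : Fin 4 ↪ S => ((e ⟨c, hc4⟩ : S) : GolayPt)) hτ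
        show (τ₀.1.1)⁻¹ (τ.1.1 (i2p c)) = i2p c
        rw [h1]; exact Equiv.symm_apply_apply _ _
      · have h := congrArg (fun g : M24 => toTab g.1) (Subgroup.mem_centralizer_singleton_iff.1 u.2)
        simp only [Subgroup.coe_mul, toTab_mul, hσ] at h
        rw [fcomp_eq (fun x hx => toTab_lt _ x hx), fcomp_eq (by decide +kernel)]
        exact h
    · intro τ _ τ' _ h
      exact mul_left_cancel (Subtype.ext (Subtype.ext (toTab_injective h)))
  rw [Nat.card_eq_fintype_card, ← Finset.card_univ]
  refine (Finset.card_le_mul_card_image _ 3 hfib).trans ?_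
  have h1 : (Finset.univ.image f).card ≤ Fintype.card (Fin 4 ↪ S) := Finset.card_le_univ _
  rw [Fintype.card_embedding_eq, Fintype.card_coe, Fintype.card_fin] at h1
  have h2 := Nat.descFactorial_le 4 hS
  have h3 : Nat.descFactorial 6 4 = 360 := rfl
  omega

/-- Six points meeting all the orbits that matter. -/
def repPts : List ℕ := [0,1,2,3,4,5]

theorem fixed_word_zero : ((List.range 4096).all fun i =>
    !(repPts.all fun k => !(word i).testBit k) ||
    !((List.range 24).all fun k => (word i).testBit k == (word i).testBit (app fix3Rep k)) ||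
    word i == 0) = true := by decide +kernel

theorem card_fixed_code {σ : M24} (hσ : toTab (σ : Equiv.Perm GolayPt) = fix3Rep) :
    Nat.card {c : golayCode // ∀ p, c.1 (σ.1 p) = c.1 p} ≤ 64 := by
  have hcard : Nat.card (Fin 6 → ZMod 2) = 64 := by simp
  rw [← hcard]
  refine Nat.card_le_card_of_injective
    (fun c k => c.1.1 (i2p (repPts.getD k.val 0))) fun c d h => ?_
  have key : ∀ w ∈ golayCode, (∀ p, w (σ.1 p) = w p) →
      (∀ k : Fin 6, w (i2p (repPts.getD k.val 0)) = 0) → w = 0 := by
    intro w hw hf h0
    obtain ⟨i, hi, hiw⟩ := inCode_iff.1 (mem_golayCode_iff.1 hw)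
    have hb : ∀ k, k < 24 → ((word i).testBit k = true ↔ w (i2p k) ≠ 0) := by
      intro k hk
      rw [hiw, toMask, Nat.testBit_ofBits_lt _ _ hk]
      simp only [decide_eq_true_eq, support₂, Finset.mem_filter, Finset.mem_univ, true_and]
      rw [show pt ⟨k, hk⟩ = i2p k from rfl]
    have h := List.all_eq_true.1 fixed_word_zero i (List.mem_range.2 hi)
    simp only [Bool.or_eq_true, Bool.not_eq_true', beq_iff_eq] at h
    rcases h with (h | h) | h
    · exfalso
      have hall : (repPts.all fun k => !(word i).testBit k) = true := by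
        refine List.all_eq_true.2 fun k hk => ?_
        obtain ⟨n, hn, rfl⟩ := List.getElem_of_mem hk
        have hn6 : n < 6 := hn
        have hlt : repPts[n] < 24 := by
          revert hn; revert n; decide +kernel
        rw [Bool.not_eq_true']
        by_contra hne
        rw [Bool.not_eq_false] at hne
        refine (hb _ hlt).1 hne ?_
        have := h0 ⟨n, hn6⟩
        rwa [List.getD_eq_getElem _ _ hn] at this
      rw [h] at hall
      exact Bool.false_ne_true hall
    · exfalso
      have hall : ((List.range 24).all fun k =>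
          (word i).testBit k == (word i).testBit (app fix3Rep k)) = true := by
        refine List.all_eq_true.2 fun k hk => ?_
        have hk' := List.mem_range.1 hk
        rw [beq_iff_eq, Bool.eq_iff_iff, hb k hk', hb _ (by rw [← hσ, app_toTab _ _ hk']; exact p2i_lt _),
          ← hσ, app_toTab _ _ hk', i2p_p2i, hf]
      rw [h] at hall
      exact Bool.false_ne_true hall
    · refine support₂_injective ?_
      rw [support₂_zero]
      refine toMask_injective ?_
      rw [← hiw, h]
      decide
  refine Subtype.ext (Subtype.ext (sub_eq_zero.1 (key _ (sub_mem c.1.2 d.1.2) (fun p => ?_) fun k => ?_)))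
  · simp only [Pi.sub_apply, c.2 p, d.2 p]
  · simp only [Pi.sub_apply]
    exact sub_eq_zero.2 (congrFun h k)

theorem card_frame_cent {σ : M24} (hσ : toTab (σ : Equiv.Perm GolayPt) = fix3Rep) :
    Nat.card ↥(frameStab ⊓ Subgroup.centralizer ({permHom σ} : Set Co0)) ≤ 69120 := by
  classical
  have hmon : ∀ g : ↥(frameStab ⊓ Subgroup.centralizer ({permHom σ} : Set Co0)),
      ∃ x : {c : golayCode // ∀ p, c.1 (σ.1 p) = c.1 p} × Subgroup.centralizer ({σ} : Set M24),
        g.1 = monomial (x.1.1, x.2.1) := by
    rintro ⟨g, hg⟩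
    obtain ⟨hgF, hgc⟩ := Subgroup.mem_inf.1 hg
    obtain ⟨⟨⟨c, hc⟩, τ⟩, rfl⟩ := frame_decomp hgF
    have hps : permHom σ = monomial (0, σ) := by
      rw [monomial]
      exact ((congrArg (· * permHom σ) (signs_zero _)).trans (one_mul _)).symm
    have h := Subgroup.mem_centralizer_singleton_iff.1 hgc
    rw [hps, monomial_mul, monomial_mul] at h
    obtain ⟨h1, h2⟩ := Prod.ext_iff.1 (monomial_injective h)
    have h1' := congrArg Subtype.val h1
    refine ⟨(⟨⟨c, hc⟩, fun p => ?_⟩, ⟨τ, Subgroup.mem_centralizer_singleton_iff.2 h2⟩), rfl⟩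
    have h3 := congrFun h1' (σ.1 p)
    simpa using h3
  choose f hf using hmon
  refine (Nat.card_le_card_of_injective f fun a c h => Subtype.ext ?_).trans ?_
  · rw [hf a, hf c, h]
  · rw [Nat.card_prod]
    exact (Nat.mul_le_mul (card_fixed_code hσ) (card_cent_m24 hσ)).trans_eq rfl

end CfsgLib.MonsterCent13.Three
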