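import Mathlib
import Cfsg.Agent.MonsterCent13.Three.Fixed
import Cfsg.Agent.MonsterCent13.Three.MatData
import Cfsg.Agent.U43Mult.DataGroup

set_option autoImplicit false

/-! Ten lattice automorphisms commuting with the permutation, and the relations between them. -/

namespace CfsgLib.MonsterCent13.Three

open Cfsg CfsgLib.Leech CfsgLib.Mathieu CfsgLib.Leech.MatRep Data
open scoped Pointwise

/-- The matrix with a given number. -/
def matK (k : ℕ) : List ℕ := centMats.getD k []

/-- The element with a given number. -/
noncomputable def cMat (k : ℕ) : Co0 := matOf (matK k)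

/-- Orthogonality on unpacked rows. -/
def orthFast (D : List (List ℕ)) : Bool :=
  (List.range 24).all fun i => (List.range 24).all fun k =>
    dotN (D.getD i []) (D.getD k []) + 1536 ==
      (if i = k then 64 else 0) + 8 * sumN (D.getD i []) + 8 * sumN (D.getD k [])

theorem digits_eq : (List.range 10).map (fun k => (matK k).map (unN 24)) = centDigits := by
  decide +kernel

theorem digits_orth : centDigits.all orthFast = true := by decide +kernel

theorem shape_lat_ok : ((List.range 10).all fun k => shapeOK (matK k) && latOK (matK k)) = true := by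
  decide +kernel

theorem mats_ok : ((List.range 10).all fun k => matOK (matK k)) = true := by
  refine List.all_eq_true.2 fun k hk => ?_
  have h1 := List.all_eq_true.1 shape_lat_ok k hk
  have h2 : orthFast ((matK k).map (unN 24)) = true :=
    List.all_eq_true.1 digits_orth _ (digits_eq ▸ List.mem_map.2 ⟨k, hk, rfl⟩)
  simp only [Bool.and_eq_true] at h1
  simp only [matOK, h1.1, h1.2, Bool.and_true, Bool.true_and]
  exact h2

theorem matK_ok {k : ℕ} (h : k < 10) : matOK (matK k) = true :=
  List.all_eq_true.1 mats_ok k (List.mem_range.2 h)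

/-- Equality of two words from a check. -/
theorem word_eq {u w : List ℕ} (hu : ∀ k ∈ u, k < 10) (hw : ∀ k ∈ w, k < 10)
    (h : eqWord matK u w = true) : (u.map cMat).prod = (w.map cMat).prod :=
  eqWord_spec (fun k hk => matK_ok (hu k hk)) (fun k hk => matK_ok (hw k hk)) h

theorem mono_check : ((List.range 24).all fun i =>
    (apN (matK 8) (axisN i) == axisN (app CfsgLib.M24Orbits.Data.fix3Rep i)) &&
      (apN (matK 9) (axisN i) == (List.range 24).map fun j => if j = i then 0 else 8)) = true := by
  decide +kernel

theorem cMat_axis {k : ℕ} (hk : k < 10) (i : GolayPt) :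
    ofN (apN (matK k) (axisN (p2i i))) = ((cMat k • axisVec i : leechLattice) : GolayPt → ℤ) := by
  have hax : sqNorm (axisVec i : GolayPt → ℤ) ≤ 64 := (sqNorm_axisVec i).le
  have h := step_spec (matK_ok hk) hax
  rw [← i2p_p2i i, encX_axis (p2i_lt i)] at h
  rw [h, i2p_p2i, ofN_encX fun q => (abs_le_eight (by rw [co0_sqNorm]; exact hax) q).1]
  rfl

theorem cMat_gamma {σ : M24} (hσ : toTab (σ : Equiv.Perm GolayPt) = CfsgLib.M24Orbits.Data.fix3Rep) :
    cMat 8 = permHom σ := by
  refine co0_ext fun i => Subtype.ext ?_
  have h := List.all_eq_true.1 mono_check (p2i i) (List.mem_range.2 (p2i_lt i))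
  simp only [Bool.and_eq_true, beq_iff_eq] at h
  rw [← cMat_axis (by norm_num) i, h.1, ← hσ, app_toTab', ← encX_axis (p2i_lt _), i2p_p2i,
    ofN_encX fun q => (abs_le_eight (sqNorm_axisVec _).le q).1]
  funext p
  simp [permHom_apply, axisVec, single, Equiv.symm_apply_eq]

theorem cMat_neg : cMat 9 = negOne := by
  refine co0_ext fun i => Subtype.ext ?_
  have h := List.all_eq_true.1 mono_check (p2i i) (List.mem_range.2 (p2i_lt i))
  simp only [Bool.and_eq_true, beq_iff_eq] at h
  rw [← cMat_axis (by norm_num) i, h.2, negOne_smul]
  funext p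
  simp only [ofN, AddSubgroup.coe_neg, Pi.neg_apply, axisVec, single]
  rw [List.getD_eq_getElem _ _ (by simp [p2i_lt]), List.getElem_map, List.getElem_range]
  by_cases e : p = i
  · subst e; simp
  · rw [if_neg (fun e' => e (p2i_injective e')), if_neg e]; norm_num

theorem comm_check : ((List.range 10).all fun k => eqWord matK [k, 8] [8, k]) = true := by
  decide +kernel

theorem omega_check : eqWord matK [6, 6, 6] [] = true ∧ eqWord matK [7, 6] [6, 6, 7] = true ∧
    ((List.range 6).all fun k => eqWord matK [k, 6] [6, k]) = true := by decide +kernel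

theorem rel_check : ((List.range U43Mult.rels.length).all fun n =>
    eqWord matK (U43Mult.rels.getD n []) (relVals.getD n []) &&
      ((relVals.getD n []).all fun k => k == 6 || k == 8 || k == 9) &&
      ((U43Mult.rels.getD n []).all fun k => Nat.blt k 6)) = true := by decide +kernel

/-- A short fixed vector through a word, against a dual vector. -/
def movesOK (e : List ℕ × ℕ × ℕ) : Bool :=
  e.1.all (fun k => Nat.blt k 10) && Nat.blt e.2.1 shortData.length && Nat.blt e.2.2 12 &&
    decide (((dotInt (ofN (runN matK e.1 ((shortData.getD e.2.1 ([], 0)).1)))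
      (vecOf (dualRows.getD e.2.2 [])) / 8 : ℤ) : ZMod 2) ≠
        b2z ((shortData.getD e.2.1 ([], 0)).2.testBit e.2.2))

theorem short_length : (shortData.all fun e => e.1.length == 24) = true := by decide +kernel

end CfsgLib.MonsterCent13.Three
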