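import Mathlib
import Cfsg.Agent.MonsterCent13.Generic
import Cfsg.Agent.MonsterCent13.Three.Mats
import Cfsg.Agent.MonsterCent13.Three.FrameCent
import Cfsg.Agent.U43Mult.Model
import Cfsg.Agent.CosetEnum.Present

set_option autoImplicit false

/-! The centraliser of the permutation in the lattice group, modulo `± γ`, has shape `3.U₄(3).2`
and acts faithfully on the fixed classes. -/

namespace CfsgLib.MonsterCent13.Three

open Cfsg CfsgLib.Leech CfsgLib.Mathieu CfsgLib.Leech.MatRep CfsgLib.CosetEnum Data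
open scoped Pointwise

/-- The centraliser of the permutation. -/
abbrev Cγ (σ : M24) : Subgroup Co0 := Subgroup.centralizer ({permHom σ} : Set Co0)

/-- The quotient by `± γ`. -/
abbrev Lq (σ : M24) : Type := ↥(Cγ σ) ⧸ base (permHom σ)

/-- Trivial action on one class. -/
def clsStab (v : leechLattice) : Subgroup Co0 where
  carrier := {g | Cg (g • v) v}
  one_mem' := by simpa using Cg.refl v
  mul_mem' := fun {g h} hg hh => by
    show Cg ((g * h) • v) v
    rw [mul_smul]; exact (Cg.smul hh g).trans hg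
  inv_mem' := fun {g} hg => by
    show Cg (g⁻¹ • v) v
    simpa using (Cg.smul hg g⁻¹).symm

theorem base_trivial {γ g : Co0} (hg : g ∈ Subgroup.center Co0 ⊔ Subgroup.zpowers γ)
    {v : leechLattice} (hv : Cg (γ • v) v) : Cg (g • v) v := by
  refine (sup_le ?_ (Subgroup.zpowers_le.2 hv) :
    Subgroup.center Co0 ⊔ Subgroup.zpowers γ ≤ clsStab v) hg
  intro c hc
  rcases center_co0_cases hc with rfl | rfl
  · exact one_mem _
  · show Cg (negOne • v) v
    rw [negOne_smul]
    exact ⟨-v, by abel⟩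

variable {σ : M24} (hσ : toTab (σ : Equiv.Perm GolayPt) = CfsgLib.M24Orbits.Data.fix3Rep)
include hσ

theorem cMat_comm {k : ℕ} (hk : k < 10) : cMat k ∈ Cγ σ := by
  rw [Subgroup.mem_centralizer_singleton_iff]
  have h := word_eq (u := [k, 8]) (w := [8, k])
    (fun j hj => by simp at hj; omega) (fun j hj => by simp at hj; omega)
    (List.all_eq_true.1 comm_check k (List.mem_range.2 hk))
  simpa [cMat_gamma hσ] using h

/-- The elements inside the centraliser. -/
noncomputable def cElt (k : ℕ) : Cγ σ :=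
  ⟨cMat (min k 9), cMat_comm hσ (by omega)⟩

theorem cElt_coe {k : ℕ} (hk : k < 10) : ((cElt hσ k : Cγ σ) : Co0) = cMat k := by
  show cMat (min k 9) = _
  rw [min_eq_left (by omega)]

theorem coe_word : ∀ {w : List ℕ}, (∀ k ∈ w, k < 10) →
    ((gword (cElt hσ) w : Cγ σ) : Co0) = (w.map cMat).prod
  | [], _ => rfl
  | k :: w, h => by
    show ((cElt hσ k * gword (cElt hσ) w : Cγ σ) : Co0) = _
    rw [Subgroup.coe_mul, coe_word (fun j hj => h j (List.mem_cons_of_mem _ hj)),
      cElt_coe hσ (h k List.mem_cons_self), List.map_cons, List.prod_cons]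

/-- The elements in the quotient. -/
noncomputable def qElt (k : ℕ) : Lq σ := QuotientGroup.mk (cElt hσ k)

theorem qWord (w : List ℕ) : gword (qElt hσ) w = QuotientGroup.mk (gword (cElt hσ) w) :=
  (gword_map (QuotientGroup.mk' (base (permHom σ))) _ w).symm

theorem q_word_eq {u w : List ℕ} (hu : ∀ k ∈ u, k < 10) (hw : ∀ k ∈ w, k < 10)
    (h : eqWord matK u w = true) : gword (qElt hσ) u = gword (qElt hσ) w := by
  rw [qWord, qWord]
  exact congrArg QuotientGroup.mk (Subtype.ext (by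
    rw [coe_word hσ hu, coe_word hσ hw]; exact word_eq hu hw h))

theorem qElt_gamma : qElt hσ 8 = 1 := by
  refine (QuotientGroup.eq_one_iff _).2 ?_
  show ((cElt hσ 8 : Cγ σ) : Co0) ∈ Subgroup.center Co0 ⊔ Subgroup.zpowers (permHom σ)
  rw [cElt_coe hσ (by norm_num), cMat_gamma hσ]
  exact Subgroup.mem_sup_right (Subgroup.mem_zpowers _)

theorem qElt_neg : qElt hσ 9 = 1 := by
  refine (QuotientGroup.eq_one_iff _).2 ?_
  show ((cElt hσ 9 : Cγ σ) : Co0) ∈ Subgroup.center Co0 ⊔ Subgroup.zpowers (permHom σ)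
  rw [cElt_coe hσ (by norm_num), cMat_neg]
  exact Subgroup.mem_sup_left negOne_central

omit hσ in
theorem moves_check : moveWits.all movesOK = true := by decide +kernel

theorem word_moves {w : List ℕ} {i l : ℕ} (hmem : (w, i, l) ∈ moveWits) :
    (∀ k ∈ w, k < 10) ∧
      ∃ v : leechLattice, Cg (permHom σ • v) v ∧ ¬ Cg ((w.map cMat).prod • v) v := by
  have h := List.all_eq_true.1 moves_check _ hmem
  simp only [movesOK, Bool.and_eq_true, decide_eq_true_eq, List.all_eq_true, Nat.blt, Nat.ble_eq] at h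
  obtain ⟨⟨⟨hw, hi⟩, hl⟩, hne⟩ := h
  replace hw : ∀ k ∈ w, k < 10 := fun k hk => Nat.lt_of_succ_le (hw k hk)
  have hi' : i < shortData.length := Nat.lt_of_succ_le hi
  rw [List.getD_eq_getElem _ _ hi'] at hne
  have hs := List.all_eq_true.1 short_check _ (List.getElem_mem hi')
  have hlen := List.all_eq_true.1 short_length _ (List.getElem_mem hi')
  simp only [shortOK, Bool.and_eq_true, decide_eq_true_eq] at hs
  rw [beq_iff_eq] at hlen
  obtain ⟨⟨⟨⟨hlat, hn32⟩, hfix⟩, hdot⟩, -⟩ := hs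
  let x : leechLattice := ⟨_, mem_of_lchk hlat⟩
  refine ⟨hw, x, ?_, fun hcg => hne ?_⟩
  · rw [show permHom σ • x = x from Subtype.ext (funext fun p => by
      rw [permHom_apply, symm_eq_backPt hσ]; exact hfix p)]
    exact Cg.refl _
  · have hn : sqNorm (x : GolayPt → ℤ) ≤ 64 := by
      show sqNorm (ofN _) ≤ 64
      rw [hn32]; norm_num
    have hrun := runN_spec (E := matK) (w := w) (fun k hk => matK_ok (hw k hk)) (x := x) hn
    rw [show encX (x : GolayPt → ℤ) = shortData[i].1 from encX_ofN hlen] at hrun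
    rw [hrun, ofN_encX fun q => (abs_le_eight (by rw [co0_sqNorm]; exact hn) q).1]
    exact (dotPar_cg hcg (dualB ⟨l, Nat.lt_of_succ_le hl⟩)).trans (hdot ⟨l, Nat.lt_of_succ_le hl⟩)

theorem word_ne_one {w : List ℕ} {i l : ℕ} (hmem : (w, i, l) ∈ moveWits) :
    gword (qElt hσ) w ≠ 1 := by
  obtain ⟨hw, v, hv, hnot⟩ := word_moves hσ hmem
  intro h1
  rw [qWord, QuotientGroup.eq_one_iff] at h1
  refine hnot (base_trivial ?_ hv)
  rw [← coe_word hσ hw]
  exact h1

theorem exists_wit (n : ℕ) (hn : n < 5) :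
    ∃ i l, ([[6], [6, 6], [0], [0, 6], [0, 6, 6]].getD n [], i, l) ∈ moveWits := by
  have h : ((List.range 5).all fun m => (moveWits.map Prod.fst).contains
      ([[6], [6, 6], [0], [0, 6], [0, 6, 6]].getD m [])) = true := by decide +kernel
  have h' := List.all_eq_true.1 h n (List.mem_range.2 hn)
  rw [List.contains_iff_mem, List.mem_map] at h'
  obtain ⟨⟨w, i, l⟩, hm, he⟩ := h'
  exact ⟨i, l, he ▸ hm⟩

theorem qElt_omega : qElt hσ 6 ^ 3 = 1 ∧ qElt hσ 6 ≠ 1 ∧ qElt hσ 6 * qElt hσ 6 ≠ 1 := by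
  refine ⟨?_, ?_, ?_⟩
  · have h := q_word_eq hσ (u := [6, 6, 6]) (w := []) (by simp) (by simp) omega_check.1
    simpa [gword, pow_succ, mul_assoc] using h
  · have h := word_ne_one hσ (exists_wit hσ 0 (by norm_num)).choose_spec.choose_spec
    simpa [gword] using h
  · have h := word_ne_one hσ (exists_wit hσ 1 (by norm_num)).choose_spec.choose_spec
    simpa [gword] using h

theorem qElt_delta : qElt hσ 7 * qElt hσ 6 = qElt hσ 6 * qElt hσ 6 * qElt hσ 7 := by
  have h := q_word_eq hσ (u := [7, 6]) (w := [6, 6, 7]) (by simp) (by simp) omega_check.2.1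
  simpa [gword, mul_assoc] using h

theorem qElt_comm {k : ℕ} (hk : k < 6) : qElt hσ k * qElt hσ 6 = qElt hσ 6 * qElt hσ k := by
  have h := q_word_eq hσ (u := [k, 6]) (w := [6, k]) (fun j hj => by simp at hj; omega)
    (fun j hj => by simp at hj; omega) (List.all_eq_true.1 omega_check.2.2 k (List.mem_range.2 hk))
  simpa [gword] using h

theorem qRels : ∀ r ∈ U43Mult.rels,
    gword (qElt hσ) r ∈ Subgroup.zpowers (qElt hσ 6) := by
  intro r hr
  obtain ⟨n, hn, rfl⟩ := List.getElem_of_mem hr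
  have h := List.all_eq_true.1 rel_check n (List.mem_range.2 hn)
  simp only [Bool.and_eq_true, List.all_eq_true, Bool.or_eq_true, beq_iff_eq, Nat.blt, Nat.ble_eq] at h
  obtain ⟨⟨he, hv⟩, hr6⟩ := h
  rw [List.getD_eq_getElem _ _ hn] at he hr6
  rw [q_word_eq hσ (fun k hk => lt_trans (Nat.lt_of_succ_le (hr6 k hk)) (by norm_num))
    (fun k hk => by rcases hv k hk with (h | h) | h <;> omega) he]
  refine gword_mem _ _ fun k hk => ?_
  rcases hv k hk with (h | h) | h <;> subst h
  · exact Subgroup.mem_zpowers _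
  · rw [qElt_gamma]; exact one_mem _
  · rw [qElt_neg]; exact one_mem _

theorem card_Cγ_le : Nat.card (Cγ σ) ≤ 69120 * 1701 := by
  classical
  haveI := Fintype.ofFinite (Cγ σ)
  have hfix : ∀ g : Cγ σ, Cg (permHom σ • (g : Co0) • axisVec none) ((g : Co0) • axisVec none) := by
    intro g
    rw [← mul_smul, ← Subgroup.mem_centralizer_singleton_iff.1 g.2, mul_smul]
    exact Cg.smul (permHom_mem_frameStab σ) _
  choose f hf using fun g => exists_coord hσ (hfix g)
  rw [Nat.card_eq_fintype_card, ← Finset.card_univ]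
  refine (Finset.card_le_mul_card_image (f := f) _ 69120 ?_).trans ?_
  · intro j hj
    obtain ⟨g₀, -, rfl⟩ := Finset.mem_image.1 hj
    refine le_trans ?_ (card_frame_cent hσ)
    haveI := Fintype.ofFinite ↥(frameStab ⊓ Cγ σ)
    rw [Nat.card_eq_fintype_card, ← Finset.card_univ]
    have hmem : ∀ g, f g = f g₀ → (g₀⁻¹ * g : Cγ σ).1 ∈ frameStab ⊓ Cγ σ := by
      intro g hg
      refine Subgroup.mem_inf.2 ⟨?_, (g₀⁻¹ * g).2⟩
      have h1 : Cg ((g : Co0) • axisVec none) ((g₀ : Co0) • axisVec none) := by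
        refine ((hf g).2).trans ?_
        rw [hg]
        exact ((hf g₀).2).symm
      show Cg (((g₀ : Co0)⁻¹ * (g : Co0)) • axisVec none) (axisVec none)
      rw [mul_smul]
      simpa using h1.smul (g₀ : Co0)⁻¹
    refine Finset.card_le_card_of_injOn
      (fun g => if h : f g = f g₀ then (⟨_, hmem g h⟩ : ↥(frameStab ⊓ Cγ σ)) else 1)
      (fun g _ => Finset.mem_coe.2 (Finset.mem_univ _)) ?_
    intro a ha c hc h
    simp only [Finset.coe_filter, Finset.mem_univ, true_and, Set.mem_setOf_eq] at ha hc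
    simp only [dif_pos ha, dif_pos hc] at h
    exact mul_left_cancel (Subtype.ext (congrArg (fun y : ↥(frameStab ⊓ Cγ σ) => (y : Co0)) h))
  · refine Nat.mul_le_mul_left _ ?_
    rw [← frame_count]
    refine le_trans (Finset.card_le_card (t := ((List.range 4096).filter frameCode).toFinset) ?_)
      (List.toFinset_card_le _)
    intro j hj
    obtain ⟨g, -, rfl⟩ := Finset.mem_image.1 hj
    rw [List.mem_toFinset, List.mem_filter, List.mem_range]
    exact ⟨(hf g).1, frame_code hσ (hf g).1 (hf g).2 ((Rel.of_smul _ _).symm)⟩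

theorem card_Lq_le : Nat.card (Lq σ) ≤ 19595520 := by
  have hσ3 : permHom σ ^ 3 = 1 := by
    rw [← map_pow]
    have e : σ ^ 3 = 1 := Subtype.ext (toTab_injective (by
      rw [pow_succ, pow_two, Subgroup.coe_mul, Subgroup.coe_mul, toTab_mul, toTab_mul,
        Subgroup.coe_one, toTab_one, hσ]
      decide +kernel))
    rw [e, map_one]
  have hγ1 : permHom σ ≠ 1 := by
    intro h
    have h2 := congrArg (fun g : Co0 => ((g • axisVec (i2p 6) : leechLattice) : GolayPt → ℤ) (i2p 6)) h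
    simp only [permHom_apply, symm_eq_backPt hσ, one_smul, axisVec, single] at h2
    revert h2
    decide +kernel
  haveI : Fact (Nat.Prime 3) := ⟨Nat.prime_three⟩
  have ho : orderOf (permHom σ) = 3 := orderOf_eq_prime hσ3 hγ1
  set Bs := Subgroup.center Co0 ⊔ Subgroup.zpowers (permHom σ)
  have hle : Bs ≤ Cγ σ := sup_le
    (fun c hc => Subgroup.mem_centralizer_singleton_iff.2 (Subgroup.mem_center_iff.1 hc _).symm)
    (Subgroup.zpowers_le.2 (Subgroup.mem_centralizer_singleton_iff.2 rfl))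
  have h6 : 6 ≤ Nat.card (base (permHom σ)) := by
    rw [show base (permHom σ) = Bs.subgroupOf (Cγ σ) from rfl,
      Nat.card_congr (Subgroup.subgroupOfEquivOfLe hle).toEquiv]
    have h2 : 2 ∣ Nat.card Bs := center_co0_card ▸ Subgroup.card_dvd_of_le le_sup_left
    have h3 : 3 ∣ Nat.card Bs := by
      have h := Subgroup.card_dvd_of_le (le_sup_right : Subgroup.zpowers (permHom σ) ≤ Bs)
      rwa [Nat.card_zpowers, ho] at h
    have h0 : 0 < Nat.card Bs := Nat.card_pos
    omega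
  have h := Subgroup.card_eq_card_quotient_mul_card_subgroup (base (permHom σ))
  have h' := card_Cγ_le hσ
  rw [h] at h'
  nlinarith

theorem structure_three :
    (∀ k ∈ Cγ σ, (∀ v : leechLattice, Cg (permHom σ • v) v → Cg (k • v) v) →
      k ∈ Subgroup.center Co0 ⊔ Subgroup.zpowers (permHom σ)) ∧
    (∀ T : Subgroup (Lq σ), T.Normal → IsPGroup 2 T → T = ⊥) ∧
    ∃ (N M : Subgroup (Lq σ)) (_ : N.Normal) (_ : M.Normal), N ≤ M ∧ Nat.card N = 3 ∧ M.index = 2 ∧
      Nonempty (↥M ⧸ N.subgroupOf M ≃* U43Mult.G9) := by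
  classical
  haveI : Fact (Nat.Prime 3) := ⟨Nat.prime_three⟩
  haveI : Fact (Nat.Prime 2) := ⟨Nat.prime_two⟩
  haveI : Finite U43Mult.G9 := Nat.finite_of_card_ne_zero (by rw [U43Mult.card_G9]; norm_num)
  obtain ⟨hΩ3, hΩ1, hΩ2⟩ := qElt_omega hσ
  set Ω := qElt hσ 6 with hΩ
  set MC : Subgroup (Lq σ) := Subgroup.centralizer ({Ω} : Set (Lq σ)) with hMC
  set N : Subgroup (Lq σ) := Subgroup.zpowers Ω with hN
  have hNM : N ≤ MC := Subgroup.zpowers_le.2 (Subgroup.mem_centralizer_singleton_iff.2 rfl)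
  have hcardN : Nat.card N = 3 := by rw [hN, Nat.card_zpowers]; exact orderOf_eq_prime hΩ3 hΩ1
  haveI hNn : (N.subgroupOf MC).Normal := by
    refine ⟨fun n hn g => ?_⟩
    rw [Subgroup.mem_subgroupOf] at hn ⊢
    obtain ⟨j, hj⟩ := Subgroup.mem_zpowers_iff.1 hn
    have hc : Commute (g : Lq σ) (n : Lq σ) := by
      rw [← hj]
      exact (show Commute (g : Lq σ) Ω from Subgroup.mem_centralizer_singleton_iff.1 g.2).zpow_right j
    rw [Subgroup.coe_mul, Subgroup.coe_mul, InvMemClass.coe_inv, hc.eq, mul_inv_cancel_right]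
    exact hn
  have hu : ∀ k < 6, qElt hσ k ∈ MC := fun k hk =>
    Subgroup.mem_centralizer_singleton_iff.2 (qElt_comm hσ hk)
  let um : ℕ → MC := fun k => if h : k < 6 then ⟨_, hu k h⟩ else 1
  let v : ℕ → ↥MC ⧸ N.subgroupOf MC := fun k => QuotientGroup.mk (um k)
  have hum : ∀ {w : List ℕ}, (∀ x ∈ w, x < 6) →
      ((gword um w : MC) : Lq σ) = gword (qElt hσ) w := by
    intro w
    induction w with
    | nil => intro _; rfl
    | cons a w ih =>
      intro h
      show ((um a * gword um w : MC) : Lq σ) = qElt hσ a * gword (qElt hσ) w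
      rw [Subgroup.coe_mul, ih fun x hx => h x (List.mem_cons_of_mem _ hx)]
      simp only [um, dif_pos (h a List.mem_cons_self)]
  have hv : ∀ w ∈ U43Mult.rels, gword v w = 1 := by
    intro w hw
    have h6 : ∀ x ∈ w, x < 6 := fun x hx => by
      simpa [Nat.blt, Nat.ble_eq] using
        List.all_eq_true.1 (List.all_eq_true.1 U43Mult.rels_lt w hw) x hx
    rw [show gword v w = QuotientGroup.mk (gword um w) from
      (gword_map (QuotientGroup.mk' (N.subgroupOf MC)) um w).symm, QuotientGroup.eq_one_iff,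
      Subgroup.mem_subgroupOf, hum h6]
    exact qRels hσ w hw
  -- the pairs
  let pr : ℕ → (↥MC ⧸ N.subgroupOf MC) × U43Mult.G9 := fun k => (v k, U43Mult.genG k)
  have hpr : ∀ w ∈ U43Mult.rels, gword pr w = 1 := by
    intro w hw
    refine Prod.ext ?_ ?_
    · rw [← MonoidHom.coe_fst, gword_map]; exact hv w hw
    · rw [← MonoidHom.coe_snd, gword_map]; exact U43Mult.genG_rels w hw
  set P : Subgroup ((↥MC ⧸ N.subgroupOf MC) × U43Mult.G9) :=
    Subgroup.closure {a | ∃ x < 6, pr x = a} with hP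
  obtain ⟨hPle, -⟩ := U43Mult.genG_bound _ pr hpr
  let p2 : P →* U43Mult.G9 := (MonoidHom.snd _ _).comp P.subtype
  have hp2s : Function.Surjective p2 := by
    rw [← MonoidHom.range_eq_top, eq_top_iff, ← U43Mult.genG_top, Subgroup.closure_le]
    rintro _ ⟨x, hx, rfl⟩
    exact ⟨⟨pr x, Subgroup.subset_closure ⟨x, hx, rfl⟩⟩, rfl⟩
  have hp2b : Function.Bijective p2 := by
    refine (Nat.bijective_iff_surjective_and_card p2).2 ⟨hp2s, le_antisymm hPle ?_⟩
    exact Nat.card_le_card_of_surjective p2 hp2s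
  let ee : P ≃* U43Mult.G9 := MulEquiv.ofBijective p2 hp2b
  let θ : U43Mult.G9 →* ↥MC ⧸ N.subgroupOf MC :=
    ((MonoidHom.fst _ _).comp P.subtype).comp ee.symm.toMonoidHom
  have hθ0 : θ (U43Mult.genG 0) = v 0 := by
    have e : ee.symm (U43Mult.genG 0) = ⟨pr 0, Subgroup.subset_closure ⟨0, by norm_num, rfl⟩⟩ :=
      ee.injective (by rw [MulEquiv.apply_symm_apply]; rfl)
    show ((ee.symm (U43Mult.genG 0) : P) : (↥MC ⧸ N.subgroupOf MC) × U43Mult.G9).1 = v 0
    rw [e]
  have hv0 : v 0 ≠ 1 := by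
    intro h
    rw [show v 0 = QuotientGroup.mk (um 0) from rfl, QuotientGroup.eq_one_iff,
      Subgroup.mem_subgroupOf, show ((um 0 : MC) : Lq σ) = qElt hσ 0 from rfl] at h
    have h0 := word_ne_one hσ (exists_wit hσ 2 (by norm_num)).choose_spec.choose_spec
    have h1 := word_ne_one hσ (exists_wit hσ 3 (by norm_num)).choose_spec.choose_spec
    have h2 := word_ne_one hσ (exists_wit hσ 4 (by norm_num)).choose_spec.choose_spec
    simp [gword] at h0 h1 h2
    obtain ⟨n, hn⟩ : ∃ n : ℕ, Ω ^ n = qElt hσ 0 := mem_powers_iff_mem_zpowers.2 h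
    have hm : Ω ^ n = Ω ^ (n % 3) := by
      conv_lhs => rw [← Nat.mod_add_div n 3, pow_add, pow_mul, hΩ3, one_pow, mul_one]
    rw [hm] at hn
    have := Nat.mod_lt n (show 3 > 0 by norm_num)
    interval_cases (n % 3)
    · exact h0 (by rw [← hn, pow_zero])
    · refine h2 ?_
      rw [← hn, ← hΩ, pow_one, ← hΩ3, pow_three]
    · refine h1 ?_
      rw [← hn, ← hΩ, ← hΩ3, pow_succ' Ω 2, pow_two]
      simp [mul_assoc]
  have hθi : Function.Injective θ := by
    rw [← MonoidHom.ker_eq_bot_iff]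
    refine (θ.normal_ker.eq_bot_or_eq_top).resolve_right fun h => hv0 ?_
    rw [← hθ0, ← MonoidHom.mem_ker, h]
    exact Subgroup.mem_top _
  have hlow : 3265920 ≤ Nat.card (↥MC ⧸ N.subgroupOf MC) :=
    U43Mult.card_G9 ▸ Nat.card_le_card_of_injective θ hθi
  have hMCcard : Nat.card MC = Nat.card (↥MC ⧸ N.subgroupOf MC) * 3 := by
    rw [Subgroup.card_eq_card_quotient_mul_card_subgroup (N.subgroupOf MC),
      Nat.card_congr (Subgroup.subgroupOfEquivOfLe hNM).toEquiv, hcardN]
  have hδ : qElt hσ 7 ∉ MC := by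
    rw [hMC, Subgroup.mem_centralizer_singleton_iff]
    intro h
    have h' : Ω * qElt hσ 7 = Ω * Ω * qElt hσ 7 := by rw [← qElt_delta hσ, h]
    exact hΩ1 (mul_left_cancel ((mul_one Ω).trans (mul_right_cancel h'))).symm
  have hidx : MC.index = 2 ∧ Nat.card (↥MC ⧸ N.subgroupOf MC) = 3265920 := by
    have h1 : MC.index ≠ 1 := fun h => hδ (Subgroup.index_eq_one.1 h ▸ Subgroup.mem_top _)
    have h0 : MC.index ≠ 0 := Subgroup.index_ne_zero_of_finite
    have hcard := Subgroup.card_mul_index MC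
    have hle := card_Lq_le hσ
    rw [← hcard, hMCcard] at hle
    have h2 : 2 ≤ MC.index := by omega
    constructor <;> nlinarith
  haveI hMn : MC.Normal := Subgroup.normal_of_index_eq_two hidx.1
  have hconj : ∀ x : Lq σ, x * Ω * x⁻¹ ∈ N := by
    intro x
    by_cases hx : x ∈ MC
    · rw [Subgroup.mem_centralizer_singleton_iff.1 hx, mul_inv_cancel_right]
      exact Subgroup.mem_zpowers _
    · have hx' : (qElt hσ 7)⁻¹ * x ∈ MC := by
        rw [Subgroup.mul_mem_iff_of_index_two hidx.1, inv_mem_iff]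
        exact ⟨fun h => absurd h hδ, fun h => absurd h hx⟩
      have h := Subgroup.mem_centralizer_singleton_iff.1 hx'
      have e : x * Ω * x⁻¹ = Ω * Ω := by
        calc x * Ω * x⁻¹ = qElt hσ 7 * ((qElt hσ 7)⁻¹ * x * Ω) * x⁻¹ := by group
          _ = qElt hσ 7 * Ω * (qElt hσ 7)⁻¹ := by rw [h]; group
          _ = Ω * Ω := by rw [qElt_delta hσ, mul_inv_cancel_right]
      rw [e]
      exact mul_mem (Subgroup.mem_zpowers _) (Subgroup.mem_zpowers _)
  haveI hNnormal : N.Normal := ⟨fun n hn g => by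
    obtain ⟨j, rfl⟩ := Subgroup.mem_zpowers_iff.1 hn
    rw [← conj_zpow]
    exact zpow_mem (hconj g) j⟩
  have eiso : ↥MC ⧸ N.subgroupOf MC ≃* U43Mult.G9 :=
    (MulEquiv.ofBijective θ ((Nat.bijective_iff_injective_and_card θ).2
      ⟨hθi, U43Mult.card_G9.trans hidx.2.symm⟩)).symm
  haveI : IsSimpleGroup (↥MC ⧸ N.subgroupOf MC) := eiso.isSimpleGroup
  -- normal subgroups meeting `N` trivially
  have key : ∀ T : Subgroup (Lq σ), T.Normal → T ⊓ N = ⊥ →
      T = ⊥ ∨ (3265920 ≤ Nat.card T ∧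
        Nonempty (↥MC ⧸ N.subgroupOf MC ≃* T)) := by
    intro T hT hTN
    have hTM : T ≤ MC := fun t ht => Subgroup.mem_centralizer_singleton_iff.2
      (Subgroup.commute_of_normal_of_disjoint T N hT hNnormal (disjoint_iff.2 hTN) t Ω ht
        (Subgroup.mem_zpowers _))
    let π : T →* ↥MC ⧸ N.subgroupOf MC :=
      (QuotientGroup.mk' (N.subgroupOf MC)).comp (Subgroup.inclusion hTM)
    have hπi : Function.Injective π := by
      refine (injective_iff_map_eq_one π).2 fun t ht => Subtype.ext ?_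
      have h1 : (t : Lq σ) ∈ N := Subgroup.mem_subgroupOf.1 ((QuotientGroup.eq_one_iff (Subgroup.inclusion hTM t)).1 ht)
      exact Subgroup.mem_bot.1 (hTN ▸ Subgroup.mem_inf.2 ⟨t.2, h1⟩)
    haveI hrn : π.range.Normal := by
      refine ⟨?_⟩
      rintro _ ⟨t, rfl⟩ g
      obtain ⟨g, rfl⟩ := QuotientGroup.mk_surjective g
      exact ⟨⟨(g : Lq σ) * t * (g : Lq σ)⁻¹, hT.conj_mem _ t.2 _⟩, rfl⟩
    rcases hrn.eq_bot_or_eq_top with h | h
    · left
      rw [Subgroup.eq_bot_iff_forall]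
      intro t ht
      have h1 : π ⟨t, ht⟩ = 1 := Subgroup.mem_bot.1 (h ▸ ⟨_, rfl⟩)
      exact congrArg Subtype.val (hπi (h1.trans (map_one π).symm))
    · right
      let et : T ≃* ↥MC ⧸ N.subgroupOf MC :=
        MulEquiv.ofBijective π ⟨hπi, MonoidHom.range_eq_top.1 h⟩
      exact ⟨(hidx.2.symm.trans (Nat.card_congr et.toEquiv).symm).le, ⟨et.symm⟩⟩
  have hmeet : ∀ T : Subgroup (Lq σ), Ω ∉ T → T ⊓ N = ⊥ := by
    intro T hΩT
    rw [Subgroup.eq_bot_iff_forall]
    intro x hx
    obtain ⟨hxT, hxN⟩ := Subgroup.mem_inf.1 hx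
    by_contra hx1
    haveI : Fact (Nat.card N).Prime := ⟨by rw [hcardN]; norm_num⟩
    rcases Subgroup.eq_bot_or_eq_top_of_prime_card (Subgroup.zpowers (⟨x, hxN⟩ : N)) with h | h
    · exact hx1 (congrArg Subtype.val (Subgroup.zpowers_eq_bot.1 h))
    · have h2 : (⟨Ω, Subgroup.mem_zpowers _⟩ : N) ∈ Subgroup.zpowers (⟨x, hxN⟩ : N) :=
        h ▸ Subgroup.mem_top _
      obtain ⟨j, hj⟩ := Subgroup.mem_zpowers_iff.1 h2
      have hj' : x ^ j = Ω := by simpa using congrArg Subtype.val hj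
      exact hΩT (hj' ▸ zpow_mem hxT j)
  refine ⟨?_, ?_, N, MC, hNnormal, hMn, hNM, hcardN, hidx.1, ⟨eiso⟩⟩
  · intro k hk htriv
    let Kc : Subgroup (Cγ σ) :=
      { carrier := {g | ∀ v : leechLattice, Cg (permHom σ • v) v → Cg ((g : Co0) • v) v}
        one_mem' := fun v _ => by simpa using Cg.refl v
        mul_mem' := fun {a c} ha hc v hv => by
          show Cg (((a : Co0) * (c : Co0)) • v) v
          rw [mul_smul]; exact ((hc v hv).smul _).trans (ha v hv)
        inv_mem' := fun {a} ha v hv => by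
          show Cg ((a : Co0)⁻¹ • v) v
          simpa using ((ha v hv).smul (a : Co0)⁻¹).symm }
    haveI hKn : Kc.Normal := by
      refine ⟨fun n hn g v hv => ?_⟩
      show Cg (((g : Co0) * (n : Co0) * (g : Co0)⁻¹) • v) v
      have hg := Subgroup.mem_centralizer_singleton_iff.1 (g⁻¹).2
      have hv' : Cg (permHom σ • (g : Co0)⁻¹ • v) ((g : Co0)⁻¹ • v) := by
        rw [← mul_smul, ← show (g : Co0)⁻¹ * permHom σ = permHom σ * (g : Co0)⁻¹ from hg, mul_smul]
        exact hv.smul _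
      have h := (hn _ hv').smul (g : Co0)
      rw [smul_inv_smul] at h
      rwa [mul_smul, mul_smul]
    set Kq := Kc.map (QuotientGroup.mk' (base (permHom σ))) with hKq
    have hKqn : Kq.Normal := hKn.map _ (QuotientGroup.mk'_surjective _)
    have hΩK : Ω ∉ Kq := by
      rintro ⟨g, hg, hgΩ⟩
      apply hΩ1
      have hmem : cElt hσ 6 ∈ Kc := by
        obtain ⟨c, hc, hce⟩ : ∃ c ∈ base (permHom σ), g * c = cElt hσ 6 :=
          ⟨g⁻¹ * cElt hσ 6, QuotientGroup.eq.1 hgΩ, mul_inv_cancel_left _ _⟩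
        rw [← hce]
        exact mul_mem hg fun v hv => base_trivial hc hv
      exact (omega_not_trivial hσ hmem).elim
    rcases key Kq hKqn (hmeet Kq hΩK) with h | ⟨h, -⟩
    · have hk' : (QuotientGroup.mk (⟨k, hk⟩ : Cγ σ) : Lq σ) ∈ Kq := ⟨⟨k, hk⟩, htriv, rfl⟩
      rw [h, Subgroup.mem_bot, QuotientGroup.eq_one_iff] at hk'
      exact hk'
    · exfalso
      rw [hKq] at h
      have h1 : Nat.card ↥(Kc.map (QuotientGroup.mk' (base (permHom σ)))) ≤ Nat.card Kc :=
        Nat.le_of_dvd Nat.card_pos (Subgroup.card_map_dvd Kc _)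
      have h2 : Nat.card Kc ≤ 69120 := by
        refine le_trans ?_ (card_frame_cent hσ)
        refine Nat.card_le_card_of_injective
          (fun g => (⟨(g : Co0), Subgroup.mem_inf.2 ⟨g.2 _ (permHom_mem_frameStab σ), g.1.2⟩⟩ :
            ↥(frameStab ⊓ Cγ σ))) fun a c hac => ?_
        exact Subtype.ext (Subtype.ext (congrArg (fun y : ↥(frameStab ⊓ Cγ σ) => (y : Co0)) hac))
      exact absurd (le_trans h (le_trans h1 h2)) (by norm_num)
  · intro T hT hT2
    have hΩT : Ω ∉ T := fun h => by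
      obtain ⟨n, hn⟩ := hT2 ⟨Ω, h⟩
      have h1 : orderOf Ω ∣ 2 ^ n := orderOf_dvd_of_pow_eq_one (congrArg Subtype.val hn)
      rw [orderOf_eq_prime hΩ3 hΩ1] at h1
      have h3 := Nat.prime_three.dvd_of_dvd_pow h1
      norm_num at h3
    rcases key T hT (hmeet T hΩT) with h | ⟨-, ⟨et⟩⟩
    · exact h
    · exfalso
      obtain ⟨n, hn⟩ := (IsPGroup.iff_card.1 hT2)
      rw [← Nat.card_congr et.toEquiv, hidx.2] at hn
      have h3 : 3 ∣ 2 ^ n := hn ▸ (by norm_num)
      have h4 := Nat.prime_three.dvd_of_dvd_pow h3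
      norm_num at h4
where
  omega_not_trivial {σ : M24} (hσ : toTab (σ : Equiv.Perm GolayPt) = CfsgLib.M24Orbits.Data.fix3Rep)
      (h : ∀ v : leechLattice, Cg (permHom σ • v) v → Cg (((cElt hσ 6 : Cγ σ) : Co0) • v) v) :
      False := by
    obtain ⟨-, v, hv, hnot⟩ := word_moves hσ (exists_wit hσ 0 (by norm_num)).choose_spec.choose_spec
    rw [cElt_coe hσ (by norm_num)] at h
    exact hnot (by simpa using h v hv)

end CfsgLib.MonsterCent13.Three
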