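import Mathlib
import Cfsg.Agent.Leech.Monster.Conjugate
import Cfsg.Agent.MonsterCent13.Rebase
import Cfsg.Agent.MonsterCent13.Three.Sylow
import Cfsg.Agent.Mathieu.M24

set_option autoImplicit false

/-! An element of order three central in a Sylow 3-subgroup of the centraliser of `z` and a conjugate
of `z` in `Q`: after changing the identification it matches a fixed permutation with six fixed
points. -/

namespace CfsgLib.MonsterCent13.Three

open Cfsg CfsgLib.Leech CfsgLib.Mathieu CfsgLib.M24Orbits.Data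
open scoped Pointwise

/-- An element of the frame group of order dividing three with a given permutation part is a
sign conjugate of that permutation. -/
theorem sign_conj {γ : Co0} (hγ : γ ^ 3 = 1) (hF : γ ∈ frameStab) {σ : M24}
    (hσ : framePart ⟨γ, hF⟩ = σ) : ∃ d ∈ signsHom.range, γ = d * permHom σ * d⁻¹ := by
  classical
  have hσ3 : σ ^ 3 = 1 := by
    rw [← hσ, ← map_pow, show (⟨γ, hF⟩ : frameStab) ^ 3 = 1 from Subtype.ext hγ, map_one]
  obtain ⟨⟨⟨c, hc⟩, τ⟩, hx⟩ := frame_decomp hF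
  have hτ : τ = σ := by
    subst hx
    rw [framePart_monomial] at hσ
    exact hσ
  subst hτ
  have hγ' : γ = signs c hc * permHom τ := hx
  have hmap : ∀ d : signsHom.range, γ * d.1 * (permHom τ)⁻¹ ∈ signsHom.range := by
    rintro ⟨_, ⟨w, rfl⟩⟩
    show γ * signs w.toAdd.1 w.toAdd.2 * (permHom τ)⁻¹ ∈ _
    rw [hγ', show signs c hc * permHom τ * signs w.toAdd.1 w.toAdd.2 * (permHom τ)⁻¹ =
      signs c hc * (permHom τ * signs w.toAdd.1 w.toAdd.2 * (permHom τ)⁻¹) by group,
      perm_conj_signs, signs_mul]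
    exact ⟨Multiplicative.ofAdd ⟨_, add_mem hc (M24_isCode τ.2 w.toAdd.2)⟩, rfl⟩
  let f : signsHom.range → signsHom.range := fun d => ⟨_, hmap d⟩
  have hinj : Function.Injective f := fun u v h => Subtype.ext
    (mul_left_cancel (mul_right_cancel (congrArg Subtype.val h)))
  let π : Equiv.Perm signsHom.range := Equiv.ofBijective f (Finite.injective_iff_bijective.1 hinj)
  have hπ : ∀ (n : ℕ) (d : signsHom.range), ((π ^ n) d).1 = γ ^ n * d.1 * ((permHom τ) ^ n)⁻¹ := by
    intro n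
    induction n with
    | zero => intro d; simp
    | succ n ih =>
      intro d
      rw [pow_succ', Equiv.Perm.mul_apply]
      show γ * ((π ^ n) d).1 * (permHom τ)⁻¹ = _
      rw [ih, pow_succ', pow_succ]
      group
  haveI : Fact (Nat.Prime 3) := ⟨Nat.prime_three⟩
  haveI := Fintype.ofFinite signsHom.range
  obtain ⟨d, hd⟩ := Equiv.Perm.exists_fixed_point_of_prime (p := 3) (n := 1) (σ := π)
    (by rw [← Nat.card_eq_fintype_card, card_signsHom_range]; norm_num)
    (Equiv.ext fun d => Subtype.ext (by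
      rw [pow_one, hπ, hγ, ← map_pow, hσ3, map_one, inv_one, mul_one, one_mul]; rfl))
  refine ⟨d.1, d.2, ?_⟩
  have h : γ * d.1 * (permHom τ)⁻¹ = d.1 := congrArg Subtype.val hd
  exact eq_mul_inv_of_mul_eq (mul_inv_eq_iff_eq_mul.1 h)

theorem framePart_neg (h : negOne ∈ frameStab) : framePart ⟨negOne, h⟩ = 1 := by
  have e : negOne = monomial (⟨1, one_mem_code⟩, 1) := by
    simp only [monomial, map_one, mul_one]; rfl
  have h2 := framePart_monomial (⟨1, one_mem_code⟩, 1) (e ▸ h)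
  simpa [← e] using h2

variable {G : Type*} [Group G] [Finite G] {z : G}
variable {Q : Subgroup (Subgroup.centralizer ({z} : Set G))} [Q.Normal]
variable {e : (Subgroup.centralizer ({z} : Set G)) ⧸ Q ≃* Spor.Co1}
variable {ψ : leechLattice → Q ⧸ Subgroup.center Q}

/-- An element fixing the frame class lies over the frame group. -/
theorem mem_frame_of_commute (hc : Ctx z Q e ψ) {sq : Q}
    (hv : ψ (axisVec none) = QuotientGroup.mk sq) {k : Subgroup.centralizer ({z} : Set G)} {γ : Co0}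
    (hm : Match e k γ) (hk : Commute k (sq : Subgroup.centralizer ({z} : Set G))) :
    γ ∈ frameStab := by
  refine (psi_eq_iff hc.iso _ _).1 ?_
  rw [hc.conj_class hm hv, hv]
  refine congrArg QuotientGroup.mk (Subtype.ext ?_)
  show k * _ * k⁻¹ = _
  rw [hk.eq, mul_inv_cancel_right]

theorem framePart_unique (hc : Ctx z Q e ψ) {k : Subgroup.centralizer ({z} : Set G)} {a c : Co0}
    (ha : Match e k a) (hc' : Match e k c) (hA : a ∈ frameStab) (hC : c ∈ frameStab) :
    framePart ⟨a, hA⟩ = framePart ⟨c, hC⟩ := by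
  have _ := hc
  have h : c = a * (a⁻¹ * c) := by group
  rcases center_co0_cases (QuotientGroup.eq.1 (ha.trans hc'.symm)) with r | r <;> rw [r] at h
  · rw [mul_one] at h; subst h; rfl
  · have hn : negOne ∈ frameStab := signs_mem_frameStab 1 one_mem_code
    have e' : (⟨c, hC⟩ : frameStab) = ⟨a, hA⟩ * ⟨negOne, hn⟩ := Subtype.ext h
    rw [e', map_mul, framePart_neg, mul_one]

/-- Inside `C(z)`. -/
def toC {s : G} (l : Subgroup.centralizer ({z, s} : Set G)) : Subgroup.centralizer ({z} : Set G) :=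
  ⟨l.1, Subgroup.centralizer_le (Set.singleton_subset_iff.2 (Set.mem_insert z {s})) l.2⟩

omit [Finite G] [Q.Normal] in
theorem toC_mul {s : G} (l m : Subgroup.centralizer ({z, s} : Set G)) :
    toC (l * m) = toC l * toC m := rfl

omit [Finite G] [Q.Normal] in
theorem toC_commute {sq : Q}
    (l : Subgroup.centralizer ({z, ((sq : Subgroup.centralizer ({z} : Set G)) : G)} : Set G)) :
    Commute (toC l) (sq : Subgroup.centralizer ({z} : Set G)) :=
  Subtype.ext (Subgroup.mem_centralizer_iff.1 l.2 _ (Set.mem_insert_of_mem z rfl)).symm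

/-- The image in `M24` of an element centralising `z` and the further conjugate. -/
noncomputable def mImage (hc : Ctx z Q e ψ) {sq : Q}
    (hv : ψ (axisVec none) = QuotientGroup.mk sq) :
    Subgroup.centralizer ({z, ((sq : Subgroup.centralizer ({z} : Set G)) : G)} : Set G) →* M24 :=
  MonoidHom.mk' (fun l => framePart ⟨(exists_match_right (e := e) (toC l)).choose,
    mem_frame_of_commute hc hv (exists_match_right (e := e) (toC l)).choose_spec (toC_commute l)⟩)
    (fun l m => by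
      rw [← map_mul]
      exact framePart_unique hc (exists_match_right (e := e) (toC (l * m))).choose_spec
        (c := (exists_match_right (e := e) (toC l)).choose *
          (exists_match_right (e := e) (toC m)).choose)
        (toC_mul l m ▸ (exists_match_right (e := e) (toC l)).choose_spec.mul
          (exists_match_right (e := e) (toC m)).choose_spec) _ _)

theorem mImage_eq (hc : Ctx z Q e ψ) {sq : Q} (hv : ψ (axisVec none) = QuotientGroup.mk sq)
    (l : Subgroup.centralizer ({z, ((sq : Subgroup.centralizer ({z} : Set G)) : G)} : Set G))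
    {γ : Co0} (hF : γ ∈ frameStab) (hm : Match e (toC l) γ) :
    mImage hc hv l = framePart ⟨γ, hF⟩ := by
  rw [mImage]
  exact framePart_unique hc (exists_match_right (e := e) (toC l)).choose_spec hm
    (mem_frame_of_commute hc hv (exists_match_right (e := e) (toC l)).choose_spec (toC_commute l)) hF

theorem exists_normal_form (hc : Ctx z Q e ψ) {g : G} {sq : Q} (hp : ConjPair z Q g sq)
    (s : G) (hs : ((sq : Subgroup.centralizer ({z} : Set G)) : G) = s)
    (Y : Subgroup G) (hY : Y ≤ Subgroup.centralizer ({z, s} : Set G)) (hY3 : Nat.card Y = 3)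
    (hcent : ∃ P : Sylow 3 ↥(Subgroup.centralizer ({z, s} : Set G)),
      Y.subgroupOf (Subgroup.centralizer ({z, s} : Set G)) ≤
        (Subgroup.center ↥(P : Subgroup ↥(Subgroup.centralizer ({z, s} : Set G)))).map
          (P : Subgroup ↥(Subgroup.centralizer ({z, s} : Set G))).subtype) :
    ∃ (e' : (Subgroup.centralizer ({z} : Set G)) ⧸ Q ≃* Spor.Co1)
      (ψ' : leechLattice → Q ⧸ Subgroup.center Q) (_ : Ctx z Q e' ψ')
      (b : Subgroup.centralizer ({z} : Set G)) (σ : M24),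
      Y = Subgroup.zpowers (b : G) ∧ b ^ 3 = 1 ∧ toTab (σ : Equiv.Perm GolayPt) = fix3Rep ∧
        Match e' b (permHom σ) ∧ Commute b (sq : Subgroup.centralizer ({z} : Set G)) ∧
        ψ' (axisVec none) = QuotientGroup.mk sq := by
  classical
  haveI : Fact (Nat.Prime 3) := ⟨Nat.prime_three⟩
  subst hs
  obtain ⟨v, hv⟩ := hc.exists_class sq
  obtain ⟨t₁, ht₁⟩ := hc.class_frame hp hv
  have hc₁ := ctx_turn hc t₁
  have hv₁ : ψ (t₁⁻¹ • axisVec none) = QuotientGroup.mk sq := by
    rw [← hv, psi_eq_iff hc.iso]; simpa using (ht₁.smul t₁⁻¹).symm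
  set e₁ := turn e t₁ with he₁
  set ψ₁ : leechLattice → Q ⧸ Subgroup.center Q := fun v => ψ (t₁⁻¹ • v) with hψ₁
  set L := Subgroup.centralizer ({z, ((sq : Subgroup.centralizer ({z} : Set G)) : G)} : Set G)
  let Φ : L →* M24 := mImage (e := e₁) (ψ := ψ₁) hc₁ hv₁
  have hΦ : ∀ (l : L) {γ : Co0} (hF : γ ∈ frameStab), Match e₁ (toC l) γ →
      Φ l = framePart ⟨γ, hF⟩ := fun l γ hF hm =>
    mImage_eq (e := e₁) (ψ := ψ₁) hc₁ hv₁ l hF hm
  have hΦs : Function.Surjective Φ := by
    intro σ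
    obtain ⟨k, hk, hks⟩ := hc₁.exists_conj hv₁ hv₁ (g := permHom σ) (permHom_mem_frameStab σ)
      (fun e0 => hc.sq_noncentral hp ((hc₁.class_zero hv₁).1 e0))
    have hkL : (k : G) ∈ L := Subgroup.mem_centralizer_iff.2 fun y hy => by
      rcases hy with rfl | rfl
      · exact Subgroup.mem_centralizer_iff.1 k.2 _ rfl
      · exact (congrArg Subtype.val (mul_inv_eq_iff_eq_mul.1 hks)).symm
    exact ⟨⟨k, hkL⟩, (hΦ ⟨k, hkL⟩ (permHom_mem_frameStab σ) hk).trans (framePart_permHom σ)⟩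
  have hker : ∀ l : L, Φ l = 1 → l ^ (2 ^ 26) = 1 := by
    intro l hl
    obtain ⟨γ, hγ⟩ := exists_match_right (e := e₁) (toC l)
    have hF := mem_frame_of_commute hc₁ hv₁ hγ (toC_commute l)
    rw [hΦ l hF hγ] at hl
    obtain ⟨c, hcc, hγc⟩ := framePart_eq_one hl
    have h2 := hγ.mul hγ
    have hsq : γ * γ = 1 := by
      rw [show γ = signs c hcc from hγc, signs_mul]
      have e0 : c + c = 0 := funext fun i => CharTwo.add_self_eq_zero _
      simp only [e0]
      exact signs_zero _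
    rw [hsq, Match, QuotientGroup.mk_one, eq_comm, map_eq_one_iff e₁ e₁.injective,
      QuotientGroup.eq_one_iff] at h2
    have h3 := pow_card_eq_one' (x := (⟨_, h2⟩ : Q))
    rw [hc.setting.2.2.2.1] at h3
    have h4 : ((l : G) * (l : G)) ^ (2 ^ (2 * 12 + 1)) = 1 :=
      congrArg (fun q : Q => ((q : Subgroup.centralizer ({z} : Set G)) : G)) h3
    refine Subtype.ext ?_
    rw [SubgroupClass.coe_pow, OneMemClass.coe_one, show (2 : ℕ) ^ 26 = 2 * 2 ^ (2 * 12 + 1) from rfl,
      pow_mul, pow_two, h4]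
  obtain ⟨P, hP⟩ := hcent
  haveI : Finite M24 := inferInstance
  let P' : Sylow 3 M24 := Sylow.mapSurjective hΦs P
  have hP0 : IsPGroup 3 syl3Grp := IsPGroup.of_card (n := 3) (by rw [card_syl3Grp]; norm_num)
  let S0 : Sylow 3 M24 := hP0.toSylow (by
    intro h
    have h2 := Subgroup.card_mul_index syl3Grp
    rw [card_syl3Grp, card_M24] at h2
    omega)
  obtain ⟨τ, hτ⟩ := MulAction.exists_smul_eq M24 P' S0
  obtain ⟨σ, hσt, hσ3, hσ1⟩ := exists_sigma
  -- a nontrivial element of `Y`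
  obtain ⟨⟨y, hyY⟩, hy1⟩ : ∃ y : Y, y ≠ 1 := by
    by_contra h
    push Not at h
    haveI : Subsingleton Y := ⟨fun a c => (h a).trans (h c).symm⟩
    rw [Nat.card_of_subsingleton (1 : Y)] at hY3
    omega
  let yL : L := ⟨y, hY hyY⟩
  have hyo : orderOf y = 3 := by
    have h1 : orderOf (⟨y, hyY⟩ : Y) ∣ 3 := hY3 ▸ orderOf_dvd_natCard _
    rcases (Nat.dvd_prime Nat.prime_three).1 h1 with h | h
    · exact absurd (orderOf_eq_one_iff.1 h) hy1
    · rwa [Subgroup.orderOf_mk] at h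
  have hYz : Y = Subgroup.zpowers y := (Subgroup.eq_of_le_of_card_ge
    (Subgroup.zpowers_le.2 hyY) (by rw [Nat.card_zpowers, hyo, hY3])).symm
  have hyP : yL ∈ (Subgroup.center ↥(P : Subgroup L)).map (P : Subgroup L).subtype :=
    hP (Subgroup.mem_subgroupOf.2 hyY)
  obtain ⟨yP, hyPc, hyPe⟩ := hyP
  have hm1 : τ * Φ yL * τ⁻¹ ∈ syl3Grp := by
    have h : τ * Φ yL * τ⁻¹ ∈ ((τ • P' : Sylow 3 M24) : Subgroup M24) := by
      rw [Sylow.coe_subgroup_smul, Subgroup.mem_pointwise_smul_iff_inv_smul_mem]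
      rw [show ((MulAut.conj τ)⁻¹ • (τ * Φ yL * τ⁻¹) : M24) = Φ yL by
        rw [← map_inv, MulAut.smul_def, MulAut.conj_apply]; group]
      exact ⟨yL, hyPe ▸ yP.2, rfl⟩
    rw [hτ] at h
    exact h
  have hm2 : ∀ h ∈ syl3Grp, τ * Φ yL * τ⁻¹ * h = h * (τ * Φ yL * τ⁻¹) := by
    intro h hh
    have h' : h ∈ ((τ • P' : Sylow 3 M24) : Subgroup M24) := by rw [hτ]; exact hh
    rw [Sylow.coe_subgroup_smul, Subgroup.mem_pointwise_smul_iff_inv_smul_mem] at h'
    obtain ⟨r, hr, hrh⟩ := h'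
    rw [← map_inv, MulAut.smul_def, MulAut.conj_apply, inv_inv] at hrh
    have hcm : Φ yL * Φ r = Φ r * Φ yL := by
      rw [← map_mul, ← map_mul, ← hyPe]
      exact congrArg Φ (congrArg Subtype.val (Subgroup.mem_center_iff.1 hyPc ⟨r, hr⟩)).symm
    rw [show h = τ * Φ r * τ⁻¹ by rw [hrh]; group]
    calc τ * Φ yL * τ⁻¹ * (τ * Φ r * τ⁻¹) = τ * (Φ yL * Φ r) * τ⁻¹ := by group
      _ = _ := by rw [hcm]; group
  have hne : τ * Φ yL * τ⁻¹ ≠ 1 := by
    intro h
    have h1 : Φ yL = 1 := by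
      calc Φ yL = τ⁻¹ * (τ * Φ yL * τ⁻¹) * τ := by group
        _ = 1 := by rw [h]; group
    have h2 : y ^ (2 ^ 26) = 1 := congrArg Subtype.val (hker yL h1)
    have h3 := orderOf_dvd_of_pow_eq_one h2
    rw [hyo] at h3
    norm_num at h3
  -- choose the power going to `σ`
  obtain ⟨b, hbY, hbσ⟩ : ∃ b : L, Y = Subgroup.zpowers (b : G) ∧ τ * Φ b * τ⁻¹ = σ := by
    rcases center_cases hσt hm1 hm2 with h | h | h
    · exact absurd h hne
    · exact ⟨yL, hYz, h⟩
    · refine ⟨yL⁻¹, by rw [hYz]; exact (Subgroup.zpowers_inv (g := y)).symm, ?_⟩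
      rw [map_inv, ← conj_inv, h, inv_eq_iff_mul_eq_one, mul_assoc, ← pow_three, hσ3]
  set bC : Subgroup.centralizer ({z} : Set G) := toC b
  have hb3 : bC ^ 3 = 1 := by
    refine Subtype.ext ?_
    have h1 : (b : G) ∈ Y := hbY ▸ Subgroup.mem_zpowers _
    have h2 := pow_card_eq_one' (x := (⟨(b : G), h1⟩ : Y))
    rw [hY3] at h2
    show (b : G) ^ 3 = 1
    exact congrArg Subtype.val h2
  obtain ⟨γ₀, hγ₀⟩ := exists_match_right (e := e₁) bC
  have hγ3 : γ₀ ^ 3 ∈ Subgroup.center Co0 := by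
    have h := (hγ₀.mul hγ₀).mul hγ₀
    rw [← pow_three', ← pow_three', Match, hb3, QuotientGroup.mk_one, map_one,
      QuotientGroup.eq_one_iff] at h
    exact h
  set γ := γ₀ * γ₀ ^ 3 with hγdef
  have hγ : Match e₁ bC γ := by
    rw [Match, hγdef, QuotientGroup.mk_mul, (QuotientGroup.eq_one_iff (γ₀ ^ 3)).2 hγ3, mul_one]
    exact hγ₀
  have hγp : γ ^ 3 = 1 := by
    have h2 : γ₀ ^ 3 * γ₀ ^ 3 = 1 := by
      rcases center_co0_cases hγ3 with r | r <;> rw [r]
      · exact one_mul 1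
      · refine co0_ext fun i => ?_
        rw [mul_smul, one_smul, negOne_smul, negOne_smul, neg_neg]
    calc γ ^ 3 = (γ₀ ^ 3 * γ₀ ^ 3) * (γ₀ ^ 3 * γ₀ ^ 3) := by rw [hγdef]; group
      _ = 1 := by rw [h2, one_mul]
  have hbs : Commute bC (sq : Subgroup.centralizer ({z} : Set G)) := toC_commute b
  have hF := mem_frame_of_commute hc₁ hv₁ hγ hbs
  have hpart : τ * framePart ⟨γ, hF⟩ * τ⁻¹ = σ := by rw [← hΦ b hF hγ]; exact hbσ
  have hF' : permHom τ * γ * (permHom τ)⁻¹ ∈ frameStab :=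
    mul_mem (mul_mem (permHom_mem_frameStab τ) hF) (inv_mem (permHom_mem_frameStab τ))
  obtain ⟨d, hd, hdγ⟩ := sign_conj (γ := permHom τ * γ * (permHom τ)⁻¹)
    (by rw [conj_pow, hγp, mul_one, mul_inv_cancel]) hF' (σ := σ) (by
      rw [show (⟨permHom τ * γ * (permHom τ)⁻¹, hF'⟩ : frameStab) =
        ⟨permHom τ, permHom_mem_frameStab τ⟩ * ⟨γ, hF⟩ * ⟨permHom τ, permHom_mem_frameStab τ⟩⁻¹ from rfl,
        map_mul, map_mul, map_inv, framePart_permHom, hpart])
  refine ⟨_, _, ctx_turn hc₁ (d⁻¹ * permHom τ), bC, σ, hbY, hb3, hσt, ?_, hbs, ?_⟩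
  · have h := (match_turn (t := d⁻¹ * permHom τ)).2 hγ
    rwa [show d⁻¹ * permHom τ * γ * (d⁻¹ * permHom τ)⁻¹ = d⁻¹ * (permHom τ * γ * (permHom τ)⁻¹) * d by
      group, hdγ, show d⁻¹ * (d * permHom σ * d⁻¹) * d = permHom σ by group] at h
  · have hdF : d⁻¹ * permHom τ ∈ frameStab := by
      refine mul_mem (inv_mem ?_) (permHom_mem_frameStab τ)
      obtain ⟨c, rfl⟩ := hd
      exact signs_mem_frameStab c.toAdd.1 c.toAdd.2
    show ψ₁ ((d⁻¹ * permHom τ)⁻¹ • axisVec none) = _
    rw [← hv₁]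
    exact (psi_eq_iff hc₁.iso _ _).2 (inv_mem hdF)

end CfsgLib.MonsterCent13.Three
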