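import Mathlib
import Cfsg.Agent.MonsterCent13.Quot
import Cfsg.Agent.MonsterCent13.Three.Normal
import Cfsg.Agent.MonsterCent13.Three.GroupSt

set_option autoImplicit false

/-! The centraliser of the element of order three, modulo it, has large Fischer type. -/

namespace CfsgLib.MonsterCent13.Three

open Cfsg CfsgLib.Leech CfsgLib.Mathieu CfsgLib.M24Orbits.Data
open scoped Pointwise

variable {G : Type*} [Group G] [Finite G] {z : G}
variable {Q : Subgroup (Subgroup.centralizer ({z} : Set G))} [Q.Normal]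
variable {e : (Subgroup.centralizer ({z} : Set G)) ⧸ Q ≃* Spor.Co1}
variable {ψ : leechLattice → Q ⧸ Subgroup.center Q}

theorem card_fixed_classes (hc : Ctx z Q e ψ) {σ : M24}
    (hσ : toTab (σ : Equiv.Perm GolayPt) = fix3Rep) :
    Nat.card {c : Q ⧸ Subgroup.center Q // ∃ v, ψ v = c ∧ Cg (permHom σ • v) v} = 4096 := by
  symm
  rw [← Nat.card_fin 4096]
  refine Nat.card_eq_of_bijective
    (fun j => ⟨ψ (combB j.val), combB j.val, rfl, by rw [combB_fixed hσ]; exact Cg.refl _⟩) ⟨?_, ?_⟩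
  · intro a c h
    exact Fin.ext (combB_inj a.2 c.2 ((psi_eq_iff hc.iso _ _).1 (congrArg Subtype.val h)))
  · rintro ⟨_, v, rfl, hv⟩
    obtain ⟨j, hj, hvj⟩ := exists_coord hσ hv
    exact ⟨⟨j, hj⟩, Subtype.ext ((psi_eq_iff hc.iso _ _).2 hvj.symm)⟩

/-- Pulling back the series along a surjection. -/
theorem series_pullback {D L : Type*} [Group D] [Finite D] [Group L] (χ : D →* L)
    (hχ : Function.Surjective χ) (N M : Subgroup L) [N.Normal] [M.Normal] (hNM : N ≤ M)
    (hN : Nat.card N = 3) (hM : M.index = 2) {T : Type} [Group T]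
    (e : ↥M ⧸ N.subgroupOf M ≃* T) :
    ∃ (N' M' : Subgroup D) (_ : N'.Normal) (_ : M'.Normal), χ.ker ≤ N' ∧ N' ≤ M' ∧
      Nat.card N' = 3 * Nat.card χ.ker ∧ Nonempty (↥M' ⧸ N'.subgroupOf M' ≃* T) ∧ M'.index = 2 := by
  refine ⟨N.comap χ, M.comap χ, inferInstance, inferInstance, MonoidHom.ker_le_comap χ N,
    Subgroup.comap_mono hNM, ?_, ?_, by rw [Subgroup.index_comap_of_surjective _ hχ, hM]⟩
  · let f : ↥(N.comap χ) →* L := χ.comp (N.comap χ).subtype
    have h := Subgroup.card_mul_index f.ker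
    have hr : f.range = N := by
      rw [MonoidHom.range_comp, Subgroup.range_subtype, Subgroup.map_comap_eq_self_of_surjective hχ]
    have hk : f.ker = χ.ker.subgroupOf (N.comap χ) := rfl
    rw [Subgroup.index_ker, hr, hN, hk,
      Nat.card_congr (Subgroup.subgroupOfEquivOfLe (MonoidHom.ker_le_comap χ N)).toEquiv] at h
    rw [← h, mul_comm]
  · let r : ↥(M.comap χ) →* ↥M := (χ.comp (M.comap χ).subtype).codRestrict M fun x => x.2
    let f : ↥(M.comap χ) →* T := e.toMonoidHom.comp ((QuotientGroup.mk' _).comp r)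
    have hf : Function.Surjective f := by
      intro t
      obtain ⟨m, hm⟩ := QuotientGroup.mk_surjective (e.symm t)
      obtain ⟨d, hd⟩ := hχ m.1
      have hdM : d ∈ M.comap χ := Subgroup.mem_comap.2 (hd.symm ▸ m.2)
      refine ⟨⟨d, hdM⟩, ?_⟩
      show e (QuotientGroup.mk (r ⟨d, hdM⟩)) = t
      rw [show r ⟨d, hdM⟩ = m from Subtype.ext hd, hm, MulEquiv.apply_symm_apply]
    refine ⟨(QuotientGroup.quotientMulEquivOfEq ?_).trans
      (QuotientGroup.quotientKerEquivOfSurjective f hf)⟩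
    ext x
    rw [MonoidHom.mem_ker]
    show χ x.1 ∈ N ↔ e (QuotientGroup.mk (r x)) = 1
    rw [MulEquiv.map_eq_one_iff, QuotientGroup.eq_one_iff, Subgroup.mem_subgroupOf]
    rfl

theorem large_fischer (hc : Ctx z Q e ψ) {g : G} {sq : Q} (hp : ConjPair z Q g sq)
    (s : G) (hs : ((sq : Subgroup.centralizer ({z} : Set G)) : G) = s)
    (Y : Subgroup G) (hY : Y ≤ Subgroup.centralizer ({z, s} : Set G)) (hY3 : Nat.card Y = 3)
    (hcent : ∃ P : Sylow 3 ↥(Subgroup.centralizer ({z, s} : Set G)),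
      Y.subgroupOf (Subgroup.centralizer ({z, s} : Set G)) ≤
        (Subgroup.center ↥(P : Subgroup ↥(Subgroup.centralizer ({z, s} : Set G)))).map
          (P : Subgroup ↥(Subgroup.centralizer ({z, s} : Set G))).subtype)
    [hn : (Y.subgroupOf (Subgroup.centralizer (Y : Set G))).Normal] :
    IsOfLargeFischerType
      (↥(Subgroup.centralizer (Y : Set G)) ⧸ Y.subgroupOf (Subgroup.centralizer (Y : Set G))) := by
  classical
  haveI : Fact (Nat.Prime 3) := ⟨Nat.prime_three⟩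
  obtain ⟨e', ψ', hc', b, σ, hYb, hb3, hσ, hm, hcs, -⟩ := exists_normal_form hc hp s hs Y hY hY3 hcent
  have hγ : permHom σ ^ 3 = 1 := by
    rw [← map_pow]
    have e0 : σ ^ 3 = 1 := Subtype.ext (toTab_injective (by
      rw [pow_succ, pow_two, Subgroup.coe_mul, Subgroup.coe_mul, toTab_mul, toTab_mul,
        Subgroup.coe_one, toTab_one, hσ]
      decide +kernel))
    rw [e0, map_one]
  obtain ⟨hfaith, hcore, N, M, hNn, hMn, hNM, hN3, hM2, ⟨eU⟩⟩ := structure_three hσ
  obtain ⟨zb, R, hRn, χ, hzb, hF, hRE, hRcard, hχ, hker, x, hx, hxne⟩ :=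
    quot_setting hc' (p := 3) (by norm_num) hb3 hγ hm hp hcs Y hYb hfaith hcore
  have hcard : Nat.card R = 2 ^ (2 * 6 + 1) := by
    rw [hRcard, card_fixQ hc' (by norm_num) hb3 hm, card_fixed_classes hc' hσ]
    norm_num
  obtain ⟨N', M', hN'n, hM'n, hRN, hN'M, hcardN, hiso, hidx⟩ :=
    series_pullback χ hχ N M hNM hN3 hM2 eU
  rw [hker] at hRN hcardN
  exact ⟨zb, R, hRn, ⟨hzb, hF, hRE, hcard, x, hx, hxne⟩, N', M', hN'n, hM'n, hRN, hN'M, hcardN,
    ⟨U43Mult.GF9, inferInstance, inferInstance, U43Mult.GF9.card_eq, hiso⟩, hidx⟩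

end CfsgLib.MonsterCent13.Three
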